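import Cfsg.Agent.Lib.Weyl.Poin

/-!
A finite root system with its Weyl group presented as a Coxeter system: positivity, inversion sets,
length = number of inversions, longest elements, subsystems.
-/

set_option autoImplicit false
set_option linter.unusedSectionVars false

namespace CA.Weyl

open CoxeterSystem

section Construct

variable {B : Type*} [Fintype B] [DecidableEq B] {A : B → B → ℤ} {M : CoxeterMatrix B} {R : Type*}

theorem CartanCox.liftable_perm (h : CartanCox A M) (refl : B → Equiv.Perm R) (cor : R → B → ℤ)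
    (hinj : Function.Injective cor) (hr : ∀ i r, cor (refl i r) = sig A i (cor r)) :
    M.IsLiftable refl := by
  intro i j
  ext r
  apply hinj
  have : ∀ (k : ℕ) (r : R), cor (((refl i * refl j) ^ k) r) = ((sig A i * sig A j) ^ k) (cor r) := by
    intro k
    induction k with
    | zero => intro r; simp
    | succ k ih =>
      intro r
      rw [pow_succ, pow_succ, Equiv.Perm.mul_apply, ih, Module.End.mul_apply, Equiv.Perm.mul_apply,
        hr, hr, Module.End.mul_apply]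
  rw [this, h.liftable i j]
  simp

theorem CartanCox.cor_lift (h : CartanCox A M) (refl : B → Equiv.Perm R) (cor : R → B → ℤ)
    (hinj : Function.Injective cor) (hr : ∀ i r, cor (refl i r) = sig A i (cor r))
    {W : Type*} [Group W] (cs : CoxeterSystem M W) (w : W) (r : R) :
    cor (cs.lift ⟨refl, h.liftable_perm refl cor hinj hr⟩ w r) = h.lin cs w (cor r) := by
  induction w using cs.simple_induction_left with
  | one => simp
  | mul_simple_left w i ih =>
    rw [map_mul, Equiv.Perm.mul_apply, lift_apply_simple, hr, ih, h.lin_mul_apply, h.lin_simple]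

/-- The group generated by the simple reflections acting on the roots is a Coxeter system. -/
theorem CartanCox.exists_cs (h : CartanCox A M) (refl : B → Equiv.Perm R) (cor : R → B → ℤ)
    (hinj : Function.Injective cor) (hr : ∀ i r, cor (refl i r) = sig A i (cor r))
    (simple : B → R) (hs : ∀ i, cor (simple i) = Pi.single i 1) :
    ∃ cs : CoxeterSystem M (Subgroup.closure (Set.range refl)),
      (∀ i, (cs.simple i : Equiv.Perm R) = refl i) ∧
      ∀ (w : Subgroup.closure (Set.range refl)) (r : R),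
        cor ((w : Equiv.Perm R) r) = h.lin cs w (cor r) := by
  let φ := M.toCoxeterSystem.lift ⟨refl, h.liftable_perm refl cor hinj hr⟩
  have hφ : Function.Injective φ := by
    rw [injective_iff_map_eq_one]
    intro w hw
    apply h.eq_one_of_nonneg M.toCoxeterSystem
    intro i
    rw [← hs, ← h.cor_lift refl cor hinj hr]
    change 0 ≤ cor (φ w (simple i))
    rw [hw, Equiv.Perm.one_apply, hs]
    exact single_nonneg' i
  have hrange : φ.range = Subgroup.closure (Set.range refl) := by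
    rw [MonoidHom.range_eq_map, ← M.toCoxeterSystem.subgroup_closure_range_simple,
      MonoidHom.map_closure, ← Set.range_comp]
    have : φ ∘ M.toCoxeterSystem.simple = refl :=
      funext fun i => M.toCoxeterSystem.lift_apply_simple _ i
    rw [this]
  let e : M.Group ≃* Subgroup.closure (Set.range refl) :=
    (MonoidHom.ofInjective hφ).trans (MulEquiv.subgroupCongr hrange)
  have he : ∀ w, (e w : Equiv.Perm R) = φ w := fun _ => rfl
  have hsimple : ∀ i, (((M.toCoxeterSystem.map e).simple i : _) : Equiv.Perm R) = refl i := by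
    intro i
    rw [CoxeterSystem.map_simple, he]
    exact M.toCoxeterSystem.lift_apply_simple _ i
  refine ⟨M.toCoxeterSystem.map e, hsimple, fun w r => ?_⟩
  induction w using (M.toCoxeterSystem.map e).simple_induction_left with
  | one => simp
  | mul_simple_left w i ih =>
    rw [Subgroup.coe_mul, Equiv.Perm.mul_apply, hsimple, hr, ih, h.lin_mul_apply, h.lin_simple]

end Construct

/-- A finite root system with its Weyl group `W` as a Coxeter system. -/
structure RS (B R W : Type*) [Fintype B] [DecidableEq B] [Group W] where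
  A : B → B → ℤ
  M : CoxeterMatrix B
  h : CartanCox A M
  cs : CoxeterSystem M W
  act : W →* Equiv.Perm R
  cor : R → B → ℤ
  simple : B → R
  neg : R → R
  cor_inj : Function.Injective cor
  cor_act : ∀ w r, cor (act w r) = h.lin cs w (cor r)
  cor_simple : ∀ i, cor (simple i) = Pi.single i 1
  cor_neg : ∀ r, cor (neg r) = - cor r
  pos_or_neg : ∀ r, 0 ≤ cor r ∨ cor r ≤ 0
  cor_ne_zero : ∀ r, cor r ≠ 0
  reduced : ∀ r i, 0 ≤ cor r → r ≠ simple i → 0 ≤ cor (act (cs.simple i) r)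

namespace RS

variable {B R W : Type*} [Fintype B] [DecidableEq B] [Group W] (Φ : RS B R W)

/-- Positive roots. -/
def Pos (r : R) : Prop := 0 ≤ Φ.cor r

/-- Roots of the subsystem spanned by the simple roots in `J`. -/
def InSub (J : Set B) (r : R) : Prop := ∀ k, k ∉ J → Φ.cor r k = 0

/-- `t` lies in the open cone spanned by `r` and `s`. -/
def Cone (r s t : R) : Prop :=
  ∃ a b k : ℤ, 0 < a ∧ 0 < b ∧ 0 < k ∧ k • Φ.cor t = a • Φ.cor r + b • Φ.cor s

theorem act_mul (w w' : W) (r : R) : Φ.act (w * w') r = Φ.act w (Φ.act w' r) := by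
  rw [map_mul, Equiv.Perm.mul_apply]

@[simp] theorem act_one (r : R) : Φ.act 1 r = r := by rw [map_one, Equiv.Perm.one_apply]

@[simp] theorem act_inv_act (w : W) (r : R) : Φ.act w⁻¹ (Φ.act w r) = r := by
  rw [← act_mul, inv_mul_cancel, act_one]

@[simp] theorem act_act_inv (w : W) (r : R) : Φ.act w (Φ.act w⁻¹ r) = r := by
  rw [← act_mul, mul_inv_cancel, act_one]

@[simp] theorem act_simple_simple (i : B) (r : R) :
    Φ.act (Φ.cs.simple i) (Φ.act (Φ.cs.simple i) r) = r := by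
  rw [← act_mul, simple_mul_simple_self, act_one]

@[simp] theorem neg_neg (r : R) : Φ.neg (Φ.neg r) = r := Φ.cor_inj (by simp [Φ.cor_neg])

theorem neg_inj {r s : R} (h : Φ.neg r = Φ.neg s) : r = s := by
  rw [← Φ.neg_neg r, h, neg_neg]

theorem act_neg (w : W) (r : R) : Φ.act w (Φ.neg r) = Φ.neg (Φ.act w r) :=
  Φ.cor_inj (by simp [Φ.cor_neg, Φ.cor_act])

theorem pos_neg_iff (r : R) : Φ.Pos (Φ.neg r) ↔ ¬ Φ.Pos r := by
  unfold Pos
  rw [Φ.cor_neg, neg_nonneg]
  constructor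
  · exact fun h1 h2 => Φ.cor_ne_zero r (le_antisymm h1 h2)
  · exact fun h => (Φ.pos_or_neg r).resolve_left h

theorem not_pos_iff (r : R) : ¬ Φ.Pos r ↔ Φ.cor r ≤ 0 := by
  rw [← pos_neg_iff, Pos, Φ.cor_neg, neg_nonneg]

theorem not_pos_neg_iff (r : R) : ¬ Φ.Pos (Φ.neg r) ↔ Φ.Pos r := by rw [pos_neg_iff, not_not]

theorem neg_ne (r : R) : Φ.neg r ≠ r := fun h => by
  have := Φ.pos_neg_iff r
  rw [h] at this
  exact iff_not_self this

theorem pos_simple (i : B) : Φ.Pos (Φ.simple i) := by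
  unfold Pos; rw [Φ.cor_simple]; exact single_nonneg' i

theorem not_pos_neg_simple (i : B) : ¬ Φ.Pos (Φ.neg (Φ.simple i)) :=
  (Φ.not_pos_neg_iff _).2 (Φ.pos_simple i)

theorem simple_inj {i j : B} (h : Φ.simple i = Φ.simple j) : i = j := by
  have := congrFun (congrArg Φ.cor h) i
  rw [Φ.cor_simple, Φ.cor_simple] at this
  by_contra hc
  simp [hc] at this

theorem act_simple_self (i : B) : Φ.act (Φ.cs.simple i) (Φ.simple i) = Φ.neg (Φ.simple i) :=
  Φ.cor_inj (by rw [Φ.cor_act, Φ.cor_neg, Φ.cor_simple, Φ.h.lin_simple, Φ.h.sig_single])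

theorem act_simple_neg (i : B) : Φ.act (Φ.cs.simple i) (Φ.neg (Φ.simple i)) = Φ.simple i := by
  rw [act_neg, act_simple_self, neg_neg]

theorem pos_act_simple {r : R} {i : B} (hr : Φ.Pos r) (hne : r ≠ Φ.simple i) :
    Φ.Pos (Φ.act (Φ.cs.simple i) r) := Φ.reduced r i hr hne

theorem act_simple_ne {r : R} {i : B} (hr : Φ.Pos r) : Φ.act (Φ.cs.simple i) r ≠ Φ.simple i := by
  intro h
  have := congrArg (Φ.act (Φ.cs.simple i)) h
  rw [act_simple_simple, act_simple_self] at this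
  exact Φ.not_pos_neg_simple i (this ▸ hr)

theorem lt_iff_pos (w : W) (i : B) :
    Φ.cs.length w < Φ.cs.length (w * Φ.cs.simple i) ↔ Φ.Pos (Φ.act w (Φ.simple i)) := by
  rw [Φ.h.lt_iff_nonneg, Pos, Φ.cor_act, Φ.cor_simple]

theorem lt_iff_not_pos (w : W) (i : B) :
    Φ.cs.length (w * Φ.cs.simple i) < Φ.cs.length w ↔ ¬ Φ.Pos (Φ.act w (Φ.simple i)) := by
  rw [Φ.h.lt_iff_nonpos, not_pos_iff, Φ.cor_act, Φ.cor_simple]

theorem left_lt_iff_pos (w : W) (i : B) :
    Φ.cs.length w < Φ.cs.length (Φ.cs.simple i * w) ↔ Φ.Pos (Φ.act w⁻¹ (Φ.simple i)) := by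
  rw [← lt_iff_pos, ← Φ.cs.length_inv w, ← Φ.cs.length_inv (_ * w)]
  simp

theorem eq_one_of_pos {w : W} (hw : ∀ i, Φ.Pos (Φ.act w (Φ.simple i))) : w = 1 :=
  Φ.h.eq_one_of_nonneg Φ.cs fun i => by
    have := hw i
    rwa [Pos, Φ.cor_act, Φ.cor_simple] at this

theorem act_injective : Function.Injective Φ.act := by
  rw [injective_iff_map_eq_one]
  intro w hw
  exact Φ.eq_one_of_pos fun i => by rw [hw]; exact Φ.pos_simple i

include Φ in
theorem finite_W [Finite R] : Finite W := Finite.of_injective _ Φ.act_injective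

theorem exists_not_pos {w : W} (hw : w ≠ 1) : ∃ i, ¬ Φ.Pos (Φ.act w (Φ.simple i)) := by
  by_contra hc
  push Not at hc
  exact hw (Φ.eq_one_of_pos hc)

/-! ### Subsystems -/

theorem inSub_univ (r : R) : Φ.InSub Set.univ r := fun _ h => absurd (Set.mem_univ _) h

theorem inSub_simple_iff {J : Set B} {j : B} : Φ.InSub J (Φ.simple j) ↔ j ∈ J := by
  unfold InSub
  rw [Φ.cor_simple]
  constructor
  · intro h; by_contra hc; simpa using h j hc
  · intro h k hk
    have : k ≠ j := by rintro rfl; exact hk h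
    simp [this]

theorem inSub_neg_iff {J : Set B} {r : R} : Φ.InSub J (Φ.neg r) ↔ Φ.InSub J r := by
  simp [InSub, Φ.cor_neg]

theorem InSub.mono {J K : Set B} {r : R} (h : Φ.InSub J r) (hJK : J ⊆ K) : Φ.InSub K r :=
  fun k hk => h k fun hj => hk (hJK hj)

theorem cor_act_of_notMem {J : Set B} {w : W} (hw : w ∈ par Φ.cs J) {k : B} (hk : k ∉ J) (r : R) :
    Φ.cor (Φ.act w r) k = Φ.cor r k := by
  rw [Φ.cor_act, Φ.h.lin_apply_of_notMem Φ.cs hw hk]

theorem inSub_act_iff {J : Set B} {w : W} (hw : w ∈ par Φ.cs J) {r : R} :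
    Φ.InSub J (Φ.act w r) ↔ Φ.InSub J r := by
  unfold InSub
  exact forall_congr' fun k => forall_congr' fun hk => by rw [Φ.cor_act_of_notMem hw hk]

theorem pos_act_of_not_inSub {J : Set B} {w : W} (hw : w ∈ par Φ.cs J) {r : R} (hr : Φ.Pos r)
    (hJ : ¬ Φ.InSub J r) : Φ.Pos (Φ.act w r) := by
  by_contra hc
  rw [not_pos_iff] at hc
  apply hJ
  intro k hk
  have := hc k
  rw [Φ.cor_act_of_notMem hw hk] at this
  exact le_antisymm this (hr k)

theorem inSub_of_inv {J : Set B} {w : W} (hw : w ∈ par Φ.cs J) {r : R} (hr : Φ.Pos r)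
    (hn : ¬ Φ.Pos (Φ.act w r)) : Φ.InSub J r := by
  by_contra hc
  exact hn (Φ.pos_act_of_not_inSub hw hr hc)

theorem pos_act_of_simple {J : Set B} {w : W} (hw : ∀ j ∈ J, Φ.Pos (Φ.act w (Φ.simple j))) {r : R}
    (hr : Φ.Pos r) (hJ : Φ.InSub J r) : Φ.Pos (Φ.act w r) := by
  unfold Pos
  rw [Φ.cor_act]
  refine Φ.h.lin_nonneg_of_supp Φ.cs (fun j hj => ?_) hr hJ
  have := hw j hj
  rwa [Pos, Φ.cor_act, Φ.cor_simple] at this

theorem not_pos_act_of_simple {J : Set B} {w : W} (hw : ∀ j ∈ J, ¬ Φ.Pos (Φ.act w (Φ.simple j)))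
    {r : R} (hr : Φ.Pos r) (hJ : Φ.InSub J r) : ¬ Φ.Pos (Φ.act w r) := by
  rw [not_pos_iff, Φ.cor_act]
  refine Φ.h.lin_nonpos_of_supp Φ.cs (fun j hj => ?_) hr hJ
  have := hw j hj
  rwa [not_pos_iff, Φ.cor_act, Φ.cor_simple] at this

theorem longest_iff {J : Set B} {w : W} (hw : IsLongest Φ.cs J w) {r : R} (hr : Φ.Pos r) :
    ¬ Φ.Pos (Φ.act w r) ↔ Φ.InSub J r :=
  ⟨Φ.inSub_of_inv hw.1 hr, Φ.not_pos_act_of_simple
    (fun j hj => (Φ.lt_iff_not_pos _ _).1 (hw.2 j hj)) hr⟩

theorem eq_simple_of_inSub_single {i : B} {r : R} (hr : Φ.Pos r) (h : Φ.InSub {i} r) :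
    r = Φ.simple i := by
  by_contra hc
  refine Φ.not_pos_act_of_simple (J := {i}) (w := Φ.cs.simple i) (fun j hj => ?_) hr h
    (Φ.pos_act_simple hr hc)
  rw [Set.mem_singleton_iff.1 hj, act_simple_self]
  exact Φ.not_pos_neg_simple i

theorem mem_par_of_inv {J : Set B} {w : W}
    (hw : ∀ r, Φ.Pos r → ¬ Φ.Pos (Φ.act w r) → Φ.InSub J r) : w ∈ par Φ.cs J := by
  obtain ⟨d, v, hv, rfl, hd⟩ := exists_min_decomp Φ.cs J w
  have : d = 1 := by
    apply Φ.eq_one_of_pos
    intro i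
    by_cases hi : i ∈ J
    · exact (Φ.lt_iff_pos _ _).1 (hd i hi)
    · by_contra hc
      have h1 : ¬ Φ.InSub J (Φ.simple i) := by rwa [inSub_simple_iff]
      have h2 := Φ.pos_act_of_not_inSub ((par Φ.cs J).inv_mem hv) (Φ.pos_simple i) h1
      have h3 := hw _ h2 (by rwa [act_mul, act_act_inv])
      exact h1 ((Φ.inSub_act_iff ((par Φ.cs J).inv_mem hv)).1 h3)
  simpa [this] using hv

/-! ### Cones -/

theorem Cone.symm {r s t : R} (h : Φ.Cone r s t) : Φ.Cone s r t := by
  obtain ⟨a, b, k, ha, hb, hk, e⟩ := h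
  exact ⟨b, a, k, hb, ha, hk, by rw [e, add_comm]⟩

theorem Cone.act {r s t : R} (h : Φ.Cone r s t) (w : W) :
    Φ.Cone (Φ.act w r) (Φ.act w s) (Φ.act w t) := by
  obtain ⟨a, b, k, ha, hb, hk, e⟩ := h
  refine ⟨a, b, k, ha, hb, hk, ?_⟩
  rw [Φ.cor_act, Φ.cor_act, Φ.cor_act, ← map_smul, e, map_add, map_smul, map_smul]

theorem Cone.neg {r s t : R} (h : Φ.Cone r s t) : Φ.Cone (Φ.neg r) (Φ.neg s) (Φ.neg t) := by
  obtain ⟨a, b, k, ha, hb, hk, e⟩ := h
  refine ⟨a, b, k, ha, hb, hk, ?_⟩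
  rw [Φ.cor_neg, Φ.cor_neg, Φ.cor_neg, smul_neg, e]
  module

theorem Cone.pos {r s t : R} (h : Φ.Cone r s t) (hr : Φ.Pos r) (hs : Φ.Pos s) : Φ.Pos t := by
  obtain ⟨a, b, k, ha, hb, hk, e⟩ := h
  intro i
  have := congrFun e i
  simp only [Pi.smul_apply, smul_eq_mul, Pi.add_apply] at this
  have h1 : 0 ≤ Φ.cor r i := hr i
  have h2 : 0 ≤ Φ.cor s i := hs i
  have h3 : 0 ≤ k * Φ.cor t i := by rw [this]; positivity
  exact nonneg_of_mul_nonneg_right h3 hk |> fun h => by simpa using h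

theorem Cone.not_pos {r s t : R} (h : Φ.Cone r s t) (hr : ¬ Φ.Pos r) (hs : ¬ Φ.Pos s) :
    ¬ Φ.Pos t := by
  rw [← pos_neg_iff] at hr hs ⊢
  exact h.neg.pos Φ hr hs

theorem Cone.inSub {r s t : R} (h : Φ.Cone r s t) {J : Set B} (hr : Φ.InSub J r)
    (hs : Φ.InSub J s) : Φ.InSub J t := by
  obtain ⟨a, b, k, ha, hb, hk, e⟩ := h
  intro i hi
  have := congrFun e i
  simp only [Pi.smul_apply, smul_eq_mul, Pi.add_apply, hr i hi, hs i hi] at this
  have h3 : k * Φ.cor t i = 0 := by rw [this]; ring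
  exact (mul_eq_zero.1 h3).resolve_left hk.ne'

/-- If `r` lies in the subsystem or is positive, and `s` is positive outside the subsystem, then so is
every root in the cone. -/
theorem Cone.pos_not_inSub {r s t : R} (h : Φ.Cone r s t) {J : Set B}
    (hr : Φ.Pos r ∨ Φ.InSub J r) (hs : Φ.Pos s) (hs' : ¬ Φ.InSub J s) :
    Φ.Pos t ∧ ¬ Φ.InSub J t := by
  obtain ⟨a, b, k, ha, hb, hk, e⟩ := h
  simp only [InSub, not_forall] at hs'
  obtain ⟨i, hi, hsi⟩ := hs'
  have := congrFun e i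
  simp only [Pi.smul_apply, smul_eq_mul, Pi.add_apply] at this
  have h1 : 0 ≤ Φ.cor r i := hr.elim (fun h => h i) (fun h => (h i hi).ge)
  have h2 : 0 < Φ.cor s i := lt_of_le_of_ne (hs i) (Ne.symm hsi)
  have h3 : 0 < k * Φ.cor t i := by rw [this]; positivity
  have h4 : 0 < Φ.cor t i := (mul_pos_iff_of_pos_left hk).1 h3
  refine ⟨?_, fun h => h4.ne' (h i hi)⟩
  by_contra hc
  rw [not_pos_iff] at hc
  exact absurd (hc i) (by simpa using h4)

theorem Cone.ne_simple {r s t : R} (h : Φ.Cone r s t) (hr : Φ.Pos r) (hs : Φ.Pos s) {i : B}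
    (hsi : s ≠ Φ.simple i) : t ≠ Φ.simple i := by
  have := (h.pos_not_inSub Φ (J := {i}) (Or.inl hr) hs
    fun h' => hsi (Φ.eq_simple_of_inSub_single hs h')).2
  rintro rfl
  exact this (Φ.inSub_simple_iff.2 rfl)

/-! ### Inversion sets -/

section Inv

variable [Fintype R]

open Classical in
/-- The inversion set of `w`. -/
noncomputable def inv (w : W) : Finset R := Finset.univ.filter fun r => Φ.Pos r ∧ ¬ Φ.Pos (Φ.act w r)

theorem mem_inv {w : W} {r : R} : r ∈ Φ.inv w ↔ Φ.Pos r ∧ ¬ Φ.Pos (Φ.act w r) := by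
  simp [inv]

theorem card_inv (w : W) : (Φ.inv w).card = Φ.cs.length w := by
  classical
  refine Φ.h.par_induction_length Φ.cs (J := Set.univ)
    (P := fun w => (Φ.inv w).card = Φ.cs.length w) ?_ ?_ (by rw [par_univ]; trivial)
  · rw [length_one, Finset.card_eq_zero]
    ext r; simp [mem_inv]
  · intro w _ i _ hlt ih
    have hp := (Φ.lt_iff_pos _ _).1 hlt
    have e : Φ.inv (w * Φ.cs.simple i) =
        insert (Φ.simple i) ((Φ.inv w).map (Φ.act (Φ.cs.simple i)).toEmbedding) := by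
      ext r
      simp only [mem_inv, Finset.mem_insert, Finset.mem_map, Equiv.coe_toEmbedding, act_mul]
      constructor
      · rintro ⟨h1, h2⟩
        by_cases hr : r = Φ.simple i
        · exact Or.inl hr
        · exact Or.inr ⟨_, ⟨Φ.pos_act_simple h1 hr, h2⟩, by simp⟩
      · rintro (rfl | ⟨s, ⟨h1, h2⟩, rfl⟩)
        · refine ⟨Φ.pos_simple i, ?_⟩
          rwa [act_simple_self, act_neg, not_pos_neg_iff]
        · refine ⟨Φ.pos_act_simple h1 ?_, by simpa using h2⟩
          rintro rfl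
          exact h2 hp
    rw [e, Finset.card_insert_of_notMem, Finset.card_map, ih]
    · have := Φ.cs.length_mul_simple w i
      omega
    · simp only [Finset.mem_map, mem_inv, Equiv.coe_toEmbedding, not_exists, not_and]
      exact fun s hs => Φ.act_simple_ne hs.1

include Φ in
theorem exists_longest (J : Set B) : ∃ w, IsLongest Φ.cs J w :=
  haveI := Φ.finite_W
  exists_isLongest Φ.cs J

theorem exists_w0 : ∃ w : W, w * w = 1 ∧ ∀ r, Φ.Pos r → ¬ Φ.Pos (Φ.act w r) := by
  obtain ⟨w, hw⟩ := Φ.exists_longest Set.univ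
  exact ⟨w, Φ.h.longest_mul_self Φ.cs hw, fun r hr => (Φ.longest_iff hw hr).2 (Φ.inSub_univ r)⟩

end Inv

theorem exists_simple_of_inv {J : Set B} {w : W} (hw : w ∈ par Φ.cs J) :
    ∀ r, Φ.Pos r → ¬ Φ.Pos (Φ.act w r) → ∃ v ∈ par Φ.cs J, ∃ j ∈ J, r = Φ.act v (Φ.simple j) := by
  refine Φ.h.par_induction_length Φ.cs (P := fun w => ∀ r, Φ.Pos r → ¬ Φ.Pos (Φ.act w r) →
    ∃ v ∈ par Φ.cs J, ∃ j ∈ J, r = Φ.act v (Φ.simple j)) ?_ ?_ hw
  · intro r h1 h2; exact absurd (by simpa using h1) h2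
  · intro w _ i hi _ ih r h1 h2
    by_cases hr : r = Φ.simple i
    · exact ⟨1, Subgroup.one_mem _, i, hi, by simpa using hr⟩
    · obtain ⟨v, hv, j, hj, e⟩ := ih _ (Φ.pos_act_simple h1 hr) (by rwa [← act_mul])
      refine ⟨Φ.cs.simple i * v, Subgroup.mul_mem _ (simple_mem_par _ hi) hv, j, hj, ?_⟩
      rw [act_mul, ← e, act_simple_simple]

/-- Every root of the subsystem `Φ_J` is conjugate under `W_J` to a simple root in `J`. -/
theorem exists_simple_of_inSub [Fintype R] {J : Set B} {r : R} (hr : Φ.InSub J r) :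
    ∃ v ∈ par Φ.cs J, ∃ j ∈ J, r = Φ.act v (Φ.simple j) := by
  obtain ⟨w, hw⟩ := Φ.exists_longest J
  by_cases hp : Φ.Pos r
  · exact Φ.exists_simple_of_inv hw.1 r hp ((Φ.longest_iff hw hp).2 hr)
  · have hp' := (Φ.pos_neg_iff r).2 hp
    obtain ⟨v, hv, j, hj, e⟩ := Φ.exists_simple_of_inv hw.1 _ hp'
      ((Φ.longest_iff hw hp').2 (Φ.inSub_neg_iff.2 hr))
    refine ⟨v * Φ.cs.simple j, Subgroup.mul_mem _ hv (simple_mem_par _ hj), j, hj, ?_⟩
    rw [act_mul, act_simple_self, act_neg, ← e, neg_neg]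

theorem exists_simple [Fintype R] (r : R) : ∃ v i, r = Φ.act v (Φ.simple i) := by
  obtain ⟨v, -, j, -, e⟩ := Φ.exists_simple_of_inSub (Φ.inSub_univ r)
  exact ⟨v, j, e⟩

/-- When lengths add, inversion sets are nested. -/
theorem not_pos_of_length_add {w v : W}
    (h : Φ.cs.length (w * v) = Φ.cs.length w + Φ.cs.length v) :
    (∀ r, Φ.Pos r → ¬ Φ.Pos (Φ.act v r) → ¬ Φ.Pos (Φ.act (w * v) r)) := by
  induction hn : Φ.cs.length v using Nat.strong_induction_on generalizing v with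
  | _ n ih =>
  intro r h1 h2
  by_cases h0 : v = 1
  · exact absurd (by simpa [h0] using h1) h2
  obtain ⟨j, hj⟩ := Φ.cs.exists_rightDescent_of_ne_one h0
  have hj' := Φ.cs.isRightDescent_iff.1 hj
  have h3 := Φ.cs.length_mul_le w (v * Φ.cs.simple j)
  have h4 := Φ.cs.length_mul_simple (w * v) j
  rw [← mul_assoc] at h3
  by_cases hr : r = Φ.simple j
  · rw [hr, ← lt_iff_not_pos]; omega
  · have := ih _ (by omega) (v := v * Φ.cs.simple j) (by rw [← mul_assoc]; omega) rfl _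
      (Φ.pos_act_simple h1 hr) (by rwa [act_mul, act_simple_simple])
    rwa [← mul_assoc, act_mul, act_simple_simple] at this

theorem pos_inv_of_length_add {w v : W}
    (h : Φ.cs.length (w * v) = Φ.cs.length w + Φ.cs.length v) {r : R} (h1 : Φ.Pos r)
    (h2 : ¬ Φ.Pos (Φ.act w r)) : Φ.Pos (Φ.act v⁻¹ r) := by
  by_contra hc
  have h3 := Φ.not_pos_of_length_add h _ ((Φ.pos_neg_iff _).2 hc)
    (by rwa [act_neg, act_act_inv, not_pos_neg_iff])
  rw [act_mul, act_neg, act_act_inv, act_neg, not_pos_neg_iff] at h3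
  exact h2 h3

end RS

end CA.Weyl
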