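import Cfsg.Agent.Lib.Weyl.Card

/-!
The groups of fixed points of the diagram automorphisms of the Weyl groups of types E₆, D₄, F₄, G₂.
-/

set_option autoImplicit false
set_option synthInstance.maxSize 4096

namespace CA.Weyl

open CoxeterSystem

section General

variable {n : ℕ} {A : Fin n → Fin n → ℤ} {M : CoxeterMatrix (Fin n)} {W : Type*} [Group W]

/-- Orbits of a diagram symmetry with reduced words for their longest elements. -/
def OrbOK (cols : List (List ℤ)) (ρ : Equiv.Perm (Fin n)) {k : ℕ}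
    (Os : Fin k → List (Fin n) × List (Fin n)) : Prop :=
  (∀ i, ∃ o, i ∈ (Os o).1) ∧ ∀ o, (∀ j, ρ j ∈ (Os o).1 ↔ j ∈ (Os o).1) ∧
    (∀ i ∈ (Os o).1, ∀ i' ∈ (Os o).1, i = i' ∨ ρ i = i' ∨ ρ (ρ i) = i') ∧ longb cols (Os o) = true

instance decOrbOK (cols : List (List ℤ)) (ρ : Equiv.Perm (Fin n)) {k : ℕ}
    (Os : Fin k → List (Fin n) × List (Fin n)) : Decidable (OrbOK cols ρ Os) := by
  unfold OrbOK; infer_instance

theorem OrbOK.orb {cols : List (List ℤ)} {ρ : Equiv.Perm (Fin n)} {k : ℕ}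
    {Os : Fin k → List (Fin n) × List (Fin n)} (h : OrbOK cols ρ Os) (o : Fin k) :
    ∀ i ∈ {i | i ∈ (Os o).1}, ∀ i' ∈ {i | i ∈ (Os o).1}, ∃ m : ℕ, (ρ ^ m) i = i' := by
  intro i hi i' hi'
  rcases (h.2 o).2.1 i hi i' hi' with e | e | e
  · exact ⟨0, by simpa using e⟩
  · exact ⟨1, by simpa using e⟩
  · exact ⟨2, by simpa [pow_two] using e⟩

theorem CartanCox.range_fixed (h : CartanCox A M) (cs : CoxeterSystem M W) {τ : W ≃* W}
    {ρ : Equiv.Perm (Fin n)} (hτ : ∀ i, τ (cs.simple i) = cs.simple (ρ i))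
    {cols : List (List ℤ)} (hc : ∀ i : Fin n, cols.getD i.val [] = List.ofFn fun k => A k i)
    {k : ℕ} {Os : Fin k → List (Fin n) × List (Fin n)} (hO : OrbOK cols ρ Os)
    {f : ℝ → ℝ} (hf : HasPoin cs {w | τ w = w} f) {W' : Type*} [Group W'] [Finite W']
    (hcard : (Nat.card W' : ℝ) = f 1) (ψ : W' →* W) (h1 : ∀ o, cs.wordProd (Os o).2 ∈ ψ.range)
    (h2 : ψ.range ≤ Subgroup.closure (Set.range fun o => cs.wordProd (Os o).2)) :
    Function.Injective ψ ∧ ∀ w, w ∈ ψ.range ↔ τ w = w := by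
  have hl := fun o => (h.isLongest_of_longb cs hc _ (hO.2 o).2.2).1
  have hfix := fun o => h.longest_fixed hτ (hO.2 o).1 (hl o)
  have hr : ∀ w, w ∈ ψ.range ↔ τ w = w := by
    intro w
    constructor
    · intro hw
      refine (Subgroup.closure_le (τ.toMonoidHom.eqLocus (MonoidHom.id W))).2 ?_ (h2 hw)
      rintro _ ⟨o, rfl⟩
      exact hfix o
    · intro hw
      exact h.fixed_induction hτ (K := Set.univ) (fun o => {i | i ∈ (Os o).1})
        (fun o => cs.wordProd (Os o).2) (fun i _ => hO.1 i) (fun _ => Set.subset_univ _) hO.orb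
        hl hfix (P := fun w => w ∈ ψ.range) ψ.range.one_mem
        (fun w _ _ o _ hw => ψ.range.mul_mem hw (h1 o)) (by rw [par_univ]; trivial) hw
  refine ⟨?_, hr⟩
  have hc1 : Nat.card W' = Nat.card ψ.range := by
    have := hf.ncard
    rw [← hcard] at this
    have e : Nat.card ψ.range = Nat.card {w | τ w = w} :=
      Nat.card_congr (Equiv.subtypeEquivRight hr)
    rw [e]
    exact_mod_cast this.symm
  have := (ψ.rangeRestrict_surjective.bijective_of_nat_card_le hc1.le).1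
  intro a b hab
  exact this (Subtype.ext hab)

theorem CartanCox.liftable_words (h : CartanCox A M) (cs : CoxeterSystem M W)
    {cols : List (List ℤ)} (hc : ∀ i : Fin n, cols.getD i.val [] = List.ofFn fun k => A k i)
    {k : ℕ} (M' : CoxeterMatrix (Fin k)) (ω : Fin k → List (Fin n))
    (hω : ∀ i j, (stepW cols (ω i ++ ω j))^[M' i j] (List.replicate n 1) = List.replicate n 1) :
    M'.IsLiftable fun i => cs.wordProd (ω i) := fun i j => by
  rw [← wordProd_append, h.pow_eq_one_iff cs hc]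
  exact hω i j

theorem range_lift {B' : Type*} {M' : CoxeterMatrix B'} {W' : Type*} [Group W']
    (cs' : CoxeterSystem M' W') (f : B' → W) (hf : M'.IsLiftable f) :
    (cs'.lift ⟨f, hf⟩).range = Subgroup.closure (Set.range f) := by
  rw [MonoidHom.range_eq_map, ← cs'.subgroup_closure_range_simple,
    MonoidHom.map_closure, ← Set.range_comp]
  have : (cs'.lift ⟨f, hf⟩) ∘ cs'.simple = f := funext fun i => cs'.lift_apply_simple _ i
  rw [this]

theorem pow_val_add {c : W} {m : ℕ} [NeZero m] (hc : c ^ m = 1) (i j : ZMod m) :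
    c ^ (i + j).val = c ^ i.val * c ^ j.val := by
  rw [ZMod.val_add, ← pow_add]
  conv_rhs => rw [← Nat.mod_add_div (i.val + j.val) m, pow_add, pow_mul, hc, one_pow, mul_one]

theorem exists_zmod_hom {c : W} {m : ℕ} [NeZero m] (hc : c ^ m = 1) :
    ∃ ψ : Multiplicative (ZMod m) →* W, ∀ i, ψ i = c ^ (Multiplicative.toAdd i).val :=
  ⟨MonoidHom.mk' (fun i => c ^ (Multiplicative.toAdd i).val) fun _ _ => pow_val_add hc _ _,
    fun _ => rfl⟩

theorem exists_dihedral_hom {a c : W} {m : ℕ} [NeZero m] (hc : c ^ m = 1) (ha : a * a = 1)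
    (hac : a * c * (a * c) = 1) :
    ∃ ψ : DihedralGroup m →* W, (∀ i, ψ (DihedralGroup.r i) = c ^ i.val) ∧
      ∀ i, ψ (DihedralGroup.sr i) = a * c ^ i.val := by
  have h1 : c * a = a * c⁻¹ := by
    calc c * a = (a * a) * c * a * c * c⁻¹ := by rw [ha]; group
      _ = a * (a * c * (a * c)) * c⁻¹ := by group
      _ = _ := by rw [hac, mul_one]
  have h2 : ∀ k : ℕ, c ^ k * a = a * (c ^ k)⁻¹ := by
    intro k
    induction k with
    | zero => simp
    | succ k ih => rw [pow_succ', mul_assoc, ih, ← mul_assoc, h1]; group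
  have h3 : ∀ i j : ZMod m, c ^ (j - i).val = (c ^ i.val)⁻¹ * c ^ j.val := by
    intro i j
    rw [eq_inv_mul_iff_mul_eq, ← pow_val_add hc, add_sub_cancel]
  refine ⟨MonoidHom.mk' (fun x => match x with
    | .r i => c ^ i.val
    | .sr i => a * c ^ i.val) ?_, fun _ => rfl, fun _ => rfl⟩
  rintro (i | i) (j | j)
  · exact pow_val_add hc i j
  · simp only [DihedralGroup.r_mul_sr]
    rw [h3, ← mul_assoc, ← mul_assoc, h2]
  · simp only [DihedralGroup.sr_mul_r]
    rw [pow_val_add hc, mul_assoc]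
  · simp only [DihedralGroup.sr_mul_sr]
    rw [h3, mul_assoc, ← mul_assoc (c ^ i.val), h2, ← mul_assoc, ← mul_assoc, ha, one_mul]

end General

def orbE6 : Fin 4 → List (Fin 6) × List (Fin 6) :=
  ![([1], [1]), ([3], [3]), ([2, 4], [2, 4]), ([0, 5], [0, 5])]
def orbD4 : Fin 2 → List (Fin 4) × List (Fin 4) := ![([1], [1]), ([0, 2, 3], [0, 2, 3])]
def orbF4 : Fin 2 → List (Fin 4) × List (Fin 4) := ![([0, 3], [0, 3]), ([1, 2], [1, 2, 1, 2])]
def orbG2 : Fin 1 → List (Fin 2) × List (Fin 2) := ![([0, 1], [0, 1, 0, 1, 0, 1])]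

theorem orbE6_ok : OrbOK colsE6 rhoE6 orbE6 := by decide +kernel
theorem orbD4_ok : OrbOK colsD4 rhoD4 orbD4 := by decide +kernel
theorem orbF4_ok : OrbOK colsF4 rhoF4 orbF4 := by decide +kernel
theorem orbG2_ok : OrbOK colsG2 rhoG2 orbG2 := by decide +kernel

variable {W : Type*} [Group W]

set_option backward.isDefEq.respectTransparency false in
theorem fixedE6 (cs : CoxeterSystem CoxeterMatrix.E₆ W) (τ : W ≃* W)
    (hτ : ∀ i, τ (cs.simple i) = cs.simple (rhoE6 i)) :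
    ∃ ψ : CoxeterMatrix.F₄.Group →* W, Function.Injective ψ ∧ ∀ w, w ∈ ψ.range ↔ τ w = w := by
  have hl := cartanCoxE6.liftable_words cs colsE6_spec CoxeterMatrix.F₄ (fun o => (orbE6 o).2)
    (by decide +kernel)
  haveI : Finite CoxeterMatrix.F₄.Group := Nat.finite_of_card_ne_zero (by rw [card_F4]; decide)
  refine ⟨CoxeterMatrix.F₄.toCoxeterSystem.lift ⟨_, hl⟩, cartanCoxE6.range_fixed cs hτ colsE6_spec
    orbE6_ok (poinTwE6 cs τ hτ) (by rw [card_F4]; simp only [geo_one]; norm_num) _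
    (fun o => ?_) (range_lift _ _ _).le⟩
  rw [range_lift]
  exact Subgroup.subset_closure ⟨o, rfl⟩

set_option backward.isDefEq.respectTransparency false in
theorem fixedD4 (cs : CoxeterSystem Cfsg.Lie.coxeterD4 W) (τ : W ≃* W)
    (hτ : ∀ i, τ (cs.simple i) = cs.simple (rhoD4 i)) :
    ∃ ψ : CoxeterMatrix.G₂.Group →* W, Function.Injective ψ ∧ ∀ w, w ∈ ψ.range ↔ τ w = w := by
  have hl := cartanCoxD4.liftable_words cs colsD4_spec CoxeterMatrix.G₂ (fun o => (orbD4 o).2)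
    (by decide +kernel)
  haveI : Finite CoxeterMatrix.G₂.Group := Nat.finite_of_card_ne_zero (by rw [card_G2]; decide)
  refine ⟨CoxeterMatrix.G₂.toCoxeterSystem.lift ⟨_, hl⟩, cartanCoxD4.range_fixed cs hτ colsD4_spec
    orbD4_ok (poinTwD4 cs τ hτ) (by rw [card_G2]; norm_num) _
    (fun o => ?_) (range_lift _ _ _).le⟩
  rw [range_lift]
  exact Subgroup.subset_closure ⟨o, rfl⟩

theorem fixedF4 (cs : CoxeterSystem CoxeterMatrix.F₄ W) (τ : W ≃* W)
    (hτ : ∀ i, τ (cs.simple i) = cs.simple (rhoF4 i)) :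
    ∃ ψ : DihedralGroup 8 →* W, Function.Injective ψ ∧ ∀ w, w ∈ ψ.range ↔ τ w = w := by
  have ha : cs.wordProd [0, 3] * cs.wordProd [0, 3] = 1 := by
    rw [← wordProd_append, cartanCoxF4.wordProd_eq_one_iff cs colsF4_spec]; decide +kernel
  have hb : cs.wordProd [1, 2, 1, 2] * cs.wordProd [1, 2, 1, 2] = 1 := by
    rw [← wordProd_append, cartanCoxF4.wordProd_eq_one_iff cs colsF4_spec]; decide +kernel
  have hc : (cs.wordProd [0, 3] * cs.wordProd [1, 2, 1, 2]) ^ 8 = 1 := by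
    rw [← wordProd_append, cartanCoxF4.pow_eq_one_iff cs colsF4_spec]; decide +kernel
  have hab : cs.wordProd [0, 3] * (cs.wordProd [0, 3] * cs.wordProd [1, 2, 1, 2]) =
      cs.wordProd [1, 2, 1, 2] := by rw [← mul_assoc, ha, one_mul]
  obtain ⟨ψ, h1, h2⟩ := exists_dihedral_hom hc ha (by rw [hab, hb])
  refine ⟨ψ, cartanCoxF4.range_fixed cs hτ colsF4_spec
    orbF4_ok (poinTwF4 cs τ hτ) (by rw [DihedralGroup.nat_card]; norm_num) _ (fun o => ?_) ?_⟩
  · fin_cases o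
    · exact ⟨.sr 0, by rw [h2]; simp [orbF4]⟩
    · refine ⟨.sr 1, ?_⟩
      rw [h2, show (1 : ZMod 8).val = 1 from rfl, pow_one, hab]
      rfl
  · have e1 : cs.wordProd [0, 3] ∈ Subgroup.closure (Set.range fun o => cs.wordProd (orbF4 o).2) :=
      Subgroup.subset_closure ⟨0, rfl⟩
    have e2 : cs.wordProd [1, 2, 1, 2] ∈
        Subgroup.closure (Set.range fun o => cs.wordProd (orbF4 o).2) :=
      Subgroup.subset_closure ⟨1, rfl⟩
    rintro _ ⟨i | i, rfl⟩
    · rw [h1]; exact Subgroup.pow_mem _ (Subgroup.mul_mem _ e1 e2) _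
    · rw [h2]; exact Subgroup.mul_mem _ e1 (Subgroup.pow_mem _ (Subgroup.mul_mem _ e1 e2) _)

theorem fixedG2 (cs : CoxeterSystem CoxeterMatrix.G₂ W) (τ : W ≃* W)
    (hτ : ∀ i, τ (cs.simple i) = cs.simple (rhoG2 i)) :
    ∃ ψ : Multiplicative (ZMod 2) →* W, Function.Injective ψ ∧ ∀ w, w ∈ ψ.range ↔ τ w = w := by
  have hc : cs.wordProd [0, 1, 0, 1, 0, 1] ^ 2 = 1 := by
    rw [cartanCoxG2.pow_eq_one_iff cs colsG2_spec]; decide +kernel
  obtain ⟨ψ, h1⟩ := exists_zmod_hom hc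
  refine ⟨ψ, cartanCoxG2.range_fixed cs hτ colsG2_spec
    orbG2_ok (poinTwG2 cs τ hτ) (by simp; norm_num) _ (fun o => ?_) ?_⟩
  · fin_cases o
    refine ⟨Multiplicative.ofAdd 1, ?_⟩
    rw [h1, toAdd_ofAdd, show (1 : ZMod 2).val = 1 from rfl, pow_one]
    rfl
  · rintro _ ⟨i, rfl⟩
    have e1 : cs.wordProd [0, 1, 0, 1, 0, 1] ∈
        Subgroup.closure (Set.range fun o => cs.wordProd (orbG2 o).2) :=
      Subgroup.subset_closure ⟨0, rfl⟩
    rw [h1]
    exact Subgroup.pow_mem _ e1 _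

/-! Irreducibility of the relative Coxeter systems. -/

theorem irrE6 (cs : CoxeterSystem CoxeterMatrix.E₆ W) (J : Set (Fin 4)) (h1 : J.Nonempty)
    (h2 : Jᶜ.Nonempty) : ∃ o ∈ J, ∃ o' ∉ J, cs.wordProd (orbE6 o).2 * cs.wordProd (orbE6 o').2 ≠
      cs.wordProd (orbE6 o').2 * cs.wordProd (orbE6 o).2 := by
  classical
  simp only [← wordProd_append, ne_eq, cartanCoxE6.wordProd_eq_iff cs colsE6_spec]
  have key : ∀ f : Fin 4 → Bool, (∃ o, f o = true) → (∃ o, f o = false) → ∃ o, f o = true ∧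
      ∃ o', f o' = false ∧ ¬ stepW colsE6 ((orbE6 o).2 ++ (orbE6 o').2) (List.replicate 6 1) =
        stepW colsE6 ((orbE6 o').2 ++ (orbE6 o).2) (List.replicate 6 1) := by decide +kernel
  obtain ⟨a, ha⟩ := h1
  obtain ⟨b, hb⟩ := h2
  simpa using key (fun o => decide (o ∈ J)) ⟨a, by simpa using ha⟩ ⟨b, by simpa using hb⟩

theorem irrD4 (cs : CoxeterSystem Cfsg.Lie.coxeterD4 W) (J : Set (Fin 2)) (h1 : J.Nonempty)
    (h2 : Jᶜ.Nonempty) : ∃ o ∈ J, ∃ o' ∉ J, cs.wordProd (orbD4 o).2 * cs.wordProd (orbD4 o').2 ≠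
      cs.wordProd (orbD4 o').2 * cs.wordProd (orbD4 o).2 := by
  classical
  simp only [← wordProd_append, ne_eq, cartanCoxD4.wordProd_eq_iff cs colsD4_spec]
  have key : ∀ f : Fin 2 → Bool, (∃ o, f o = true) → (∃ o, f o = false) → ∃ o, f o = true ∧
      ∃ o', f o' = false ∧ ¬ stepW colsD4 ((orbD4 o).2 ++ (orbD4 o').2) (List.replicate 4 1) =
        stepW colsD4 ((orbD4 o').2 ++ (orbD4 o).2) (List.replicate 4 1) := by decide +kernel
  obtain ⟨a, ha⟩ := h1
  obtain ⟨b, hb⟩ := h2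
  simpa using key (fun o => decide (o ∈ J)) ⟨a, by simpa using ha⟩ ⟨b, by simpa using hb⟩

theorem irrF4 (cs : CoxeterSystem CoxeterMatrix.F₄ W) (J : Set (Fin 2)) (h1 : J.Nonempty)
    (h2 : Jᶜ.Nonempty) : ∃ o ∈ J, ∃ o' ∉ J, cs.wordProd (orbF4 o).2 * cs.wordProd (orbF4 o').2 ≠
      cs.wordProd (orbF4 o').2 * cs.wordProd (orbF4 o).2 := by
  classical
  simp only [← wordProd_append, ne_eq, cartanCoxF4.wordProd_eq_iff cs colsF4_spec]
  have key : ∀ f : Fin 2 → Bool, (∃ o, f o = true) → (∃ o, f o = false) → ∃ o, f o = true ∧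
      ∃ o', f o' = false ∧ ¬ stepW colsF4 ((orbF4 o).2 ++ (orbF4 o').2) (List.replicate 4 1) =
        stepW colsF4 ((orbF4 o').2 ++ (orbF4 o).2) (List.replicate 4 1) := by decide +kernel
  obtain ⟨a, ha⟩ := h1
  obtain ⟨b, hb⟩ := h2
  simpa using key (fun o => decide (o ∈ J)) ⟨a, by simpa using ha⟩ ⟨b, by simpa using hb⟩

end CA.Weyl
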