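import Cfsg.Agent.Lib.Weyl.PoinSmall

/-! Orders of Coxeter groups and of words in them. -/

set_option autoImplicit false

namespace CA.Weyl

open CoxeterSystem

theorem HasPoin.card_univ {B : Type*} {M : CoxeterMatrix B} {W : Type*} [Group W]
    {cs : CoxeterSystem M W} {f : ℝ → ℝ} (hf : HasPoin cs Set.univ f) {n : ℕ} (hn : f 1 = n) :
    Nat.card W = n := by
  obtain ⟨F, h1, h2⟩ := hf
  have h3 := h2 1
  simp only [one_pow, Finset.sum_const, nsmul_eq_mul, mul_one] at h3
  have : Nat.card W = F.card := by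
    rw [← Nat.card_congr (Equiv.Set.univ W), show (Set.univ : Set W) = (F : Set W) from
      Set.ext fun w => by simp [h1]]
    simp
  rw [this]
  exact_mod_cast h3.trans hn

variable {n : ℕ} {A : Fin n → Fin n → ℤ} {M : CoxeterMatrix (Fin n)} {W : Type*} [Group W]

theorem CartanCox.eq_one_iff_act (h : CartanCox A M) (cs : CoxeterSystem M W) (w : W) :
    w = 1 ↔ h.act cs w (fun _ => 1) = fun _ => 1 := by
  refine ⟨fun e => by rw [e, h.act_one], fun e => ?_⟩
  have := h.mem_par_of_act_eq cs (K := Set.univ) (J := ∅) (fun _ _ => zero_le_one)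
    (fun _ _ h => absurd h one_ne_zero) (by rw [par_univ]; trivial) e
  simpa [par_empty] using this

theorem CartanCox.wordProd_eq_one_iff (h : CartanCox A M) (cs : CoxeterSystem M W)
    {cols : List (List ℤ)} (hc : ∀ i : Fin n, cols.getD i.val [] = List.ofFn fun k => A k i)
    (ω : List (Fin n)) :
    cs.wordProd ω = 1 ↔ stepW cols ω (List.replicate n 1) = List.replicate n 1 := by
  rw [h.eq_one_iff_act cs, replicate_eq_ofFn, h.stepW_ofFn cs hc, List.ofFn_inj]

theorem CartanCox.wordProd_eq_iff (h : CartanCox A M) (cs : CoxeterSystem M W)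
    {cols : List (List ℤ)} (hc : ∀ i : Fin n, cols.getD i.val [] = List.ofFn fun k => A k i)
    (ω ω' : List (Fin n)) :
    cs.wordProd ω = cs.wordProd ω' ↔
      stepW cols ω (List.replicate n 1) = stepW cols ω' (List.replicate n 1) := by
  rw [replicate_eq_ofFn, h.stepW_ofFn cs hc, h.stepW_ofFn cs hc, List.ofFn_inj]
  refine ⟨fun e => by rw [e], fun e => ?_⟩
  rw [← inv_mul_eq_one, h.eq_one_iff_act cs, h.act_mul, ← e, ← h.act_mul, inv_mul_cancel,
    h.act_one]

theorem CartanCox.pow_eq_one_iff (h : CartanCox A M) (cs : CoxeterSystem M W)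
    {cols : List (List ℤ)} (hc : ∀ i : Fin n, cols.getD i.val [] = List.ofFn fun k => A k i)
    (ω : List (Fin n)) (k : ℕ) :
    cs.wordProd ω ^ k = 1 ↔ (stepW cols ω)^[k] (List.replicate n 1) = List.replicate n 1 := by
  have : ∀ μ, (stepW cols ω)^[k] (List.ofFn μ) = List.ofFn (h.act cs (cs.wordProd ω ^ k) μ) := by
    induction k with
    | zero => intro μ; simp [h.act_one]
    | succ k ih =>
      intro μ
      rw [Function.iterate_succ_apply, h.stepW_ofFn cs hc, ih, pow_succ, h.act_mul]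
  rw [h.eq_one_iff_act cs, replicate_eq_ofFn, this, List.ofFn_inj]

theorem CartanCox.orderOf_wordProd (h : CartanCox A M) (cs : CoxeterSystem M W)
    {cols : List (List ℤ)} (hc : ∀ i : Fin n, cols.getD i.val [] = List.ofFn fun k => A k i)
    (ω : List (Fin n)) (k : ℕ) (hk : 0 < k)
    (h1 : (stepW cols ω)^[k] (List.replicate n 1) = List.replicate n 1)
    (h2 : ∀ m < k, 0 < m → (stepW cols ω)^[m] (List.replicate n 1) ≠ List.replicate n 1) :
    orderOf (cs.wordProd ω) = k := by
  rw [orderOf_eq_iff hk]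
  exact ⟨(h.pow_eq_one_iff cs hc ω k).2 h1, fun m hm hm' e =>
    h2 m hm hm' ((h.pow_eq_one_iff cs hc ω m).1 e)⟩

theorem card_B2 : Nat.card (CoxeterMatrix.B 2).Group = 8 :=
  (poinB2 (CoxeterMatrix.B 2).toCoxeterSystem).card_univ (by simp only [geo_one]; norm_num)
theorem card_G2 : Nat.card CoxeterMatrix.G₂.Group = 12 :=
  (poinG2 CoxeterMatrix.G₂.toCoxeterSystem).card_univ (by simp only [geo_one]; norm_num)
theorem card_D4 : Nat.card Cfsg.Lie.coxeterD4.Group = 192 :=
  (poinD4 Cfsg.Lie.coxeterD4.toCoxeterSystem).card_univ (by simp only [geo_one]; norm_num)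
theorem card_F4 : Nat.card CoxeterMatrix.F₄.Group = 1152 :=
  (poinF4 CoxeterMatrix.F₄.toCoxeterSystem).card_univ (by simp only [geo_one]; norm_num)
theorem card_E6 : Nat.card CoxeterMatrix.E₆.Group = 51840 :=
  (poinE6 CoxeterMatrix.E₆.toCoxeterSystem).card_univ (by simp only [geo_one]; norm_num)
theorem card_E7 : Nat.card CoxeterMatrix.E₇.Group = 2903040 :=
  (poinE7 CoxeterMatrix.E₇.toCoxeterSystem).card_univ (by simp only [geo_one]; norm_num)

end CA.Weyl
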