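import Mathlib

/-!
The geometric representation (on the coroot lattice) of a crystallographic Coxeter system of finite
type, and the basic positivity theorem: `ℓ(w) < ℓ(w s_i)` forces `w e_i ≥ 0`.
-/

set_option autoImplicit false

namespace CA.Weyl

open CoxeterSystem

variable {B : Type*} [Fintype B] [DecidableEq B]

/-- The Cartan matrix `A` (with `A j i = ⟨p_i, h_j⟩`) matches the Coxeter matrix `M`. -/
structure CartanCox (A : B → B → ℤ) (M : CoxeterMatrix B) : Prop where
  diag : ∀ i, A i i = 2
  off : ∀ i j, i ≠ j →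
    (A i j = 0 ∧ A j i = 0 ∧ M i j = 2) ∨ (A i j = -1 ∧ A j i = -1 ∧ M i j = 3) ∨
    (A i j = -1 ∧ A j i = -2 ∧ M i j = 4) ∨ (A i j = -2 ∧ A j i = -1 ∧ M i j = 4) ∨
    (A i j = -1 ∧ A j i = -3 ∧ M i j = 6) ∨ (A i j = -3 ∧ A j i = -1 ∧ M i j = 6)

/-- The linear functional `v ↦ ⟨p_i, v⟩` on the coroot lattice. -/
def phi (A : B → B → ℤ) (i : B) : (B → ℤ) →ₗ[ℤ] ℤ where
  toFun v := ∑ j, v j * A j i
  map_add' u v := by simp [add_mul, Finset.sum_add_distrib]
  map_smul' a v := by simp [Finset.mul_sum, mul_assoc]

theorem phi_apply (A : B → B → ℤ) (i : B) (v : B → ℤ) : phi A i v = ∑ j, v j * A j i := rfl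

@[simp] theorem phi_single (A : B → B → ℤ) (i j : B) : phi A i (Pi.single j 1) = A j i := by
  rw [phi_apply, Finset.sum_eq_single j]
  · simp
  · intro b _ hb; simp [Pi.single_apply, hb]
  · simp

/-- The simple reflection on the coroot lattice. -/
def sig (A : B → B → ℤ) (i : B) : Module.End ℤ (B → ℤ) :=
  LinearMap.id - (phi A i).smulRight (Pi.single i 1)

theorem sig_apply (A : B → B → ℤ) (i : B) (v : B → ℤ) :
    sig A i v = v - phi A i v • (Pi.single i 1 : B → ℤ) := rfl

theorem sig_apply_ne (A : B → B → ℤ) {i j : B} (h : j ≠ i) (v : B → ℤ) : sig A i v j = v j := by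
  simp [sig_apply, Pi.single_apply, h]

theorem sig_apply_self (A : B → B → ℤ) (i : B) (v : B → ℤ) : sig A i v i = v i - phi A i v := by
  simp [sig_apply]

/-- `v + a e_i + b e_j`. -/
def tv (v : B → ℤ) (i j : B) (a b : ℤ) : B → ℤ :=
  v + a • (Pi.single i 1 : B → ℤ) + b • (Pi.single j 1 : B → ℤ)

theorem sig_tv_left {A : B → B → ℤ} (hd : ∀ i, A i i = 2) (v : B → ℤ) (i j : B) (a b : ℤ) :
    sig A i (tv v i j a b) = tv v i j (-a - phi A i v - b * A j i) b := by
  rw [sig_apply]
  simp only [tv, map_add, map_smul, phi_single, hd, smul_eq_mul]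
  module

theorem sig_tv_right {A : B → B → ℤ} (hd : ∀ i, A i i = 2) (v : B → ℤ) (i j : B) (a b : ℤ) :
    sig A j (tv v i j a b) = tv v i j a (-b - phi A j v - a * A i j) := by
  rw [sig_apply]
  simp only [tv, map_add, map_smul, phi_single, hd, smul_eq_mul]
  module

theorem tv_zero (v : B → ℤ) (i j : B) : tv v i j 0 0 = v := by simp [tv]

theorem CartanCox.liftable {A : B → B → ℤ} {M : CoxeterMatrix B} (h : CartanCox A M) :
    M.IsLiftable (sig A) := by
  intro i j
  refine LinearMap.ext fun v => ?_
  by_cases hij : i = j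
  · subst hij
    rw [M.diagonal, pow_one, Module.End.mul_apply, Module.End.one_apply]
    conv_lhs => rw [← tv_zero v i i]
    rw [sig_tv_left h.diag, sig_tv_left h.diag]
    convert tv_zero v i i using 2
    ring
  · conv_lhs => rw [← tv_zero v i j]
    rcases h.off i j hij with ⟨h1, h2, h3⟩ | ⟨h1, h2, h3⟩ | ⟨h1, h2, h3⟩ | ⟨h1, h2, h3⟩ |
        ⟨h1, h2, h3⟩ | ⟨h1, h2, h3⟩ <;>
    · rw [h3]
      simp only [pow_succ, pow_zero, one_mul, Module.End.mul_apply, Module.End.one_apply,
        sig_tv_left h.diag, sig_tv_right h.diag, h1, h2]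
      convert tv_zero v i j using 2 <;> ring

variable {A : B → B → ℤ} {M : CoxeterMatrix B} {W : Type*} [Group W]

/-- The geometric representation. -/
noncomputable def CartanCox.lin (h : CartanCox A M) (cs : CoxeterSystem M W) :
    W →* Module.End ℤ (B → ℤ) := cs.lift ⟨sig A, h.liftable⟩

@[simp] theorem CartanCox.lin_simple (h : CartanCox A M) (cs : CoxeterSystem M W) (i : B) :
    h.lin cs (cs.simple i) = sig A i := cs.lift_apply_simple h.liftable i

theorem tv_nonneg (i j : B) {a b : ℤ} (ha : 0 ≤ a) (hb : 0 ≤ b) :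
    ∃ a' b' : ℤ, 0 ≤ a' ∧ 0 ≤ b' ∧ tv (0 : B → ℤ) i j a b =
      a' • (Pi.single i 1 : B → ℤ) + b' • (Pi.single j 1 : B → ℤ) :=
  ⟨a, b, ha, hb, by simp [tv]⟩

theorem CartanCox.dihedral (h : CartanCox A M) (cs : CoxeterSystem M W) {i j : B} (hij : i ≠ j)
    (k : ℕ) (hk : k < M i j) :
    ∃ a b : ℤ, 0 ≤ a ∧ 0 ≤ b ∧ h.lin cs (cs.wordProd (alternatingWord i j k)) (Pi.single i 1) =
      a • (Pi.single i 1 : B → ℤ) + b • (Pi.single j 1 : B → ℤ) := by
  have e : (Pi.single i 1 : B → ℤ) = tv 0 i j 1 0 := by simp [tv]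
  conv => enter [1, a, 1, b, 2, 2, 1]; rw [e]
  rcases h.off i j hij with ⟨h1, h2, h3⟩ | ⟨h1, h2, h3⟩ | ⟨h1, h2, h3⟩ | ⟨h1, h2, h3⟩ |
      ⟨h1, h2, h3⟩ | ⟨h1, h2, h3⟩ <;>
  · rw [h3] at hk
    interval_cases k <;>
    · simp only [alternatingWord, List.concat_eq_append, List.nil_append, List.cons_append,
        wordProd_cons, wordProd_nil, map_mul, map_one, lin_simple, Module.End.mul_apply,
        Module.End.one_apply, sig_tv_left h.diag, sig_tv_right h.diag, h1, h2, map_zero]
      apply tv_nonneg <;> norm_num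

theorem CartanCox.M_ne_zero (h : CartanCox A M) (i j : B) : M i j ≠ 0 := by
  by_cases hij : i = j
  · subst hij; simp
  · rcases h.off i j hij with ⟨h1, h2, h3⟩ | ⟨h1, h2, h3⟩ | ⟨h1, h2, h3⟩ | ⟨h1, h2, h3⟩ |
      ⟨h1, h2, h3⟩ | ⟨h1, h2, h3⟩ <;> omega

/-- The basic positivity theorem of the geometric representation. -/
theorem CartanCox.lin_nonneg (h : CartanCox A M) (cs : CoxeterSystem M W) :
    ∀ (n : ℕ) (w : W) (i : B), cs.length w = n → cs.length w < cs.length (w * cs.simple i) →
      0 ≤ h.lin cs w (Pi.single i 1) := by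
  intro n
  induction n using Nat.strong_induction_on with
  | _ n ih =>
  intro w i hn hlt
  by_cases hw : w = 1
  · subst hw
    simp only [map_one, Module.End.one_apply]
    intro j; by_cases hj : j = i <;> simp [Pi.single_apply, hj]
  obtain ⟨j, hj⟩ := cs.exists_rightDescent_of_ne_one hw
  have hj' := (cs.isRightDescent_iff).1 hj
  have hij : i ≠ j := by
    rintro rfl
    omega
  -- the set of admissible lengths of alternating tails
  let P : ℕ → Prop := fun k => ∃ v : W, w = v * cs.wordProd (alternatingWord i j k) ∧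
    cs.length v + k = cs.length w
  have hP1 : P 1 := ⟨w * cs.simple j, by simp [alternatingWord], hj'⟩
  have hPle : ∀ k, P k → k ≤ cs.length w := fun k ⟨v, _, hv⟩ => by omega
  classical
  set k := Nat.findGreatest P (cs.length w) with hk
  have hk1 : 1 ≤ k := Nat.le_findGreatest (hPle 1 hP1) hP1
  have hPk : P k := Nat.findGreatest_spec (hPle 1 hP1) hP1
  have hmax : ¬ P (k + 1) := fun hp =>
    Nat.findGreatest_is_greatest (Nat.lt_succ_self k) (hPle _ hp) hp
  obtain ⟨v, hv, hvl⟩ := hPk
  -- the letter that would extend the alternating word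
  have h1 : cs.length v < cs.length (v * cs.simple (if Even k then j else i)) := by
    rcases cs.length_mul_simple v (if Even k then j else i) with h' | h'
    · omega
    · exfalso
      apply hmax
      refine ⟨v * cs.simple (if Even k then j else i), ?_, by omega⟩
      rw [alternatingWord_succ', wordProd_cons, mul_assoc, simple_mul_simple_cancel_left]
      exact hv
  have h2 : cs.length v < cs.length (v * cs.simple (if Even k then i else j)) := by
    rcases cs.length_mul_simple v (if Even k then i else j) with h' | h'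
    · omega
    · exfalso
      obtain ⟨k', hk'⟩ : ∃ k', k = k' + 1 := ⟨k - 1, by omega⟩
      have e : (if Even k' then j else i) = (if Even k then i else j) := by
        rw [hk']; by_cases he : Even k' <;> simp [Nat.even_add_one, he]
      have hw' : w = (v * cs.simple (if Even k then i else j)) *
          cs.wordProd (alternatingWord i j k') := by
        rw [hv, hk', alternatingWord_succ', wordProd_cons, ← hk', e, mul_assoc]
      have l1 := cs.length_mul_le (v * cs.simple (if Even k then i else j))
        (cs.wordProd (alternatingWord i j k'))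
      have l2 := cs.length_wordProd_le (alternatingWord i j k')
      rw [length_alternatingWord] at l2
      rw [← hw'] at l1
      omega
  have hvi : cs.length v < cs.length (v * cs.simple i) := by
    by_cases he : Even k
    · simpa [he] using h2
    · simpa [he] using h1
  have hvj : cs.length v < cs.length (v * cs.simple j) := by
    by_cases he : Even k
    · simpa [he] using h1
    · simpa [he] using h2
  have hkM : k < M i j := by
    by_contra hc
    have hnr := cs.not_isReduced_alternatingWord j i (m := k + 1) (h.M_ne_zero j i)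
      (by rw [M.symmetric j i]; omega)
    have l2 := cs.length_wordProd_le (alternatingWord j i (k + 1))
    unfold CoxeterSystem.IsReduced at hnr
    rw [length_alternatingWord] at l2 hnr
    have e : w * cs.simple i = v * cs.wordProd (alternatingWord j i (k + 1)) := by
      rw [alternatingWord_succ, wordProd_concat, ← mul_assoc, ← hv]
    have l1 := cs.length_mul_le v (cs.wordProd (alternatingWord j i (k + 1)))
    rw [← e] at l1
    omega
  obtain ⟨a, b, ha, hb, hab⟩ := h.dihedral cs hij k hkM
  have p1 := ih (cs.length v) (by omega) v i rfl hvi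
  have p2 := ih (cs.length v) (by omega) v j rfl hvj
  rw [hv, map_mul, Module.End.mul_apply, hab, map_add, map_smul, map_smul]
  exact add_nonneg (smul_nonneg ha p1) (smul_nonneg hb p2)

theorem CartanCox.lin_nonneg_of_lt (h : CartanCox A M) (cs : CoxeterSystem M W) {w : W} {i : B}
    (hlt : cs.length w < cs.length (w * cs.simple i)) : 0 ≤ h.lin cs w (Pi.single i 1) :=
  h.lin_nonneg cs _ w i rfl hlt

theorem CartanCox.sig_single (h : CartanCox A M) (i : B) :
    sig A i (Pi.single i 1) = - Pi.single i 1 := by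
  rw [sig_apply, phi_single, h.diag]; module

theorem CartanCox.lin_nonpos_of_lt (h : CartanCox A M) (cs : CoxeterSystem M W) {w : W} {i : B}
    (hlt : cs.length (w * cs.simple i) < cs.length w) : h.lin cs w (Pi.single i 1) ≤ 0 := by
  have := h.lin_nonneg_of_lt cs (w := w * cs.simple i) (i := i) (by simpa using hlt)
  rw [map_mul, Module.End.mul_apply, lin_simple, h.sig_single, map_neg] at this
  exact neg_nonneg.1 this

/-- The geometric representation is faithful. -/
theorem CartanCox.eq_one_of_nonneg (h : CartanCox A M) (cs : CoxeterSystem M W) {w : W}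
    (hw : ∀ i, 0 ≤ h.lin cs w (Pi.single i 1)) : w = 1 := by
  by_contra hne
  obtain ⟨j, hj⟩ := cs.exists_rightDescent_of_ne_one hne
  have h1 := h.lin_nonpos_of_lt cs hj
  have h0 : h.lin cs w (Pi.single j 1) = 0 := le_antisymm h1 (hw j)
  have h2 : h.lin cs w⁻¹ (h.lin cs w (Pi.single j 1)) = Pi.single j 1 := by
    rw [← Module.End.mul_apply, ← map_mul, inv_mul_cancel, map_one, Module.End.one_apply]
  rw [h0, map_zero] at h2
  have := congrFun h2 j
  simp at this

theorem CartanCox.lin_injective (h : CartanCox A M) (cs : CoxeterSystem M W) :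
    Function.Injective (h.lin cs) := by
  rw [injective_iff_map_eq_one]
  intro w hw
  apply h.eq_one_of_nonneg cs
  intro i
  rw [hw, Module.End.one_apply]
  intro j; by_cases hj : j = i <;> simp [Pi.single_apply, hj]

end CA.Weyl
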