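import Cfsg.Agent.Lib.Weyl.Geom

/-!
Parabolic subgroups, minimal coset representatives, longest elements and diagram automorphisms of a
crystallographic Coxeter system (via the geometric representation).
-/

set_option autoImplicit false
set_option linter.unusedSectionVars false

namespace CA.Weyl

open CoxeterSystem

variable {B : Type*} [Fintype B] [DecidableEq B]
variable {A : B → B → ℤ} {M : CoxeterMatrix B} {W : Type*} [Group W]

theorem single_nonneg' (i : B) : (0 : B → ℤ) ≤ Pi.single i 1 := by
  intro j; by_cases hj : j = i <;> simp [hj]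

namespace CartanCox

variable (h : CartanCox A M) (cs : CoxeterSystem M W)

theorem lin_inv_lin (w : W) (v : B → ℤ) : h.lin cs w⁻¹ (h.lin cs w v) = v := by
  rw [← Module.End.mul_apply, ← map_mul, inv_mul_cancel, map_one, Module.End.one_apply]

theorem lin_lin_inv (w : W) (v : B → ℤ) : h.lin cs w (h.lin cs w⁻¹ v) = v := by
  rw [← Module.End.mul_apply, ← map_mul, mul_inv_cancel, map_one, Module.End.one_apply]

theorem lin_mul_apply (w w' : W) (v : B → ℤ) :
    h.lin cs (w * w') v = h.lin cs w (h.lin cs w' v) := by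
  rw [map_mul, Module.End.mul_apply]

theorem lin_single_ne_zero (w : W) (i : B) : h.lin cs w (Pi.single i 1) ≠ 0 := by
  intro h0
  have h2 := h.lin_inv_lin cs w (Pi.single i 1)
  rw [h0, map_zero] at h2
  have := congrFun h2 i
  simp at this

theorem lt_iff_nonneg (w : W) (i : B) :
    cs.length w < cs.length (w * cs.simple i) ↔ 0 ≤ h.lin cs w (Pi.single i 1) := by
  refine ⟨h.lin_nonneg_of_lt cs, fun h0 => ?_⟩
  rcases cs.length_mul_simple w i with h1 | h1
  · omega
  · exact absurd (le_antisymm (h.lin_nonpos_of_lt cs (by omega)) h0) (h.lin_single_ne_zero cs w i)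

theorem lt_iff_nonpos (w : W) (i : B) :
    cs.length (w * cs.simple i) < cs.length w ↔ h.lin cs w (Pi.single i 1) ≤ 0 := by
  refine ⟨h.lin_nonpos_of_lt cs, fun h0 => ?_⟩
  rcases cs.length_mul_simple w i with h1 | h1
  · exact absurd (le_antisymm h0 (h.lin_nonneg_of_lt cs (by omega))) (h.lin_single_ne_zero cs w i)
  · omega

theorem nonneg_or_nonpos (w : W) (i : B) :
    0 ≤ h.lin cs w (Pi.single i 1) ∨ h.lin cs w (Pi.single i 1) ≤ 0 := by
  rcases cs.length_mul_simple w i with h1 | h1
  · exact Or.inl (h.lin_nonneg_of_lt cs (by omega))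
  · exact Or.inr (h.lin_nonpos_of_lt cs (by omega))

theorem simple_mul_eq_of_lin_eq {d : W} {i j : B}
    (hd : h.lin cs d (Pi.single j 1) = Pi.single i 1) : cs.simple i * d = d * cs.simple j := by
  have hinv : h.lin cs d⁻¹ (Pi.single i 1) = Pi.single j 1 := by
    rw [← hd, lin_inv_lin]
  have key : cs.simple i * (d * cs.simple j * d⁻¹) = 1 := by
    apply h.eq_one_of_nonneg cs
    intro k
    have e : h.lin cs (cs.simple i * (d * cs.simple j * d⁻¹)) (Pi.single k 1) =
        Pi.single k 1 + (phi A j (h.lin cs d⁻¹ (Pi.single k 1)) - A k i) •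
          (Pi.single i 1 : B → ℤ) := by
      rw [lin_mul_apply, lin_mul_apply, lin_mul_apply, lin_simple, lin_simple, sig_apply A j,
        map_sub, map_smul, hd, lin_lin_inv, map_sub, map_smul, h.sig_single, sig_apply,
        phi_single]
      module
    by_cases hk : k = i
    · subst hk
      rw [e, hinv, phi_single, h.diag, h.diag]
      simpa using single_nonneg' k
    · rcases h.nonneg_or_nonpos cs (cs.simple i * (d * cs.simple j * d⁻¹)) k with h1 | h1
      · exact h1
      · have := h1 k
        rw [e] at this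
        simp [hk] at this
  calc cs.simple i * d = cs.simple i * (cs.simple i * (d * cs.simple j * d⁻¹)) * d := by
        rw [key, mul_one]
    _ = d * cs.simple j := by
        rw [simple_mul_simple_cancel_left]; group

theorem lin_eq_single_of_fold {d : W} {i j : B} (h1 : 0 ≤ h.lin cs d (Pi.single j 1))
    (h2 : h.lin cs (cs.simple i * d) (Pi.single j 1) ≤ 0) :
    h.lin cs d (Pi.single j 1) = Pi.single i 1 := by
  set β := h.lin cs d (Pi.single j 1) with hβ
  rw [lin_mul_apply, lin_simple, ← hβ] at h2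
  have hz : ∀ k, k ≠ i → β k = 0 := fun k hk => by
    have a := h1 k
    have b := h2 k
    rw [sig_apply_ne A hk] at b
    simp only [Pi.zero_apply] at a b
    omega
  have e : β = β i • (Pi.single i 1 : B → ℤ) := by
    funext k
    by_cases hk : k = i
    · subst hk; simp
    · simp [hk, hz k hk]
  have e2 : h.lin cs d⁻¹ β = Pi.single j 1 := h.lin_inv_lin cs d _
  rw [e, map_smul] at e2
  have e3 := congrFun e2 j
  simp only [Pi.smul_apply, smul_eq_mul, Pi.single_eq_same] at e3
  have hi : 0 ≤ β i := h1 i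
  have : β i = 1 := Int.eq_one_of_mul_eq_one_right hi e3
  rw [e, this, one_smul]

include h in
/-- The folding condition. -/
theorem fold {d : W} {i j : B} (h1 : cs.length d < cs.length (d * cs.simple j))
    (h2 : cs.length (cs.simple i * d * cs.simple j) < cs.length (cs.simple i * d)) :
    cs.simple i * d = d * cs.simple j :=
  h.simple_mul_eq_of_lin_eq cs (h.lin_eq_single_of_fold cs ((h.lt_iff_nonneg cs _ _).1 h1)
    ((h.lt_iff_nonpos cs _ _).1 h2))

end CartanCox

/-- The standard parabolic subgroup `W_J`. -/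
def par (cs : CoxeterSystem M W) (J : Set B) : Subgroup W := Subgroup.closure (cs.simple '' J)

theorem simple_mem_par (cs : CoxeterSystem M W) {J : Set B} {j : B} (hj : j ∈ J) :
    cs.simple j ∈ par cs J := Subgroup.subset_closure ⟨j, hj, rfl⟩

theorem par_mono (cs : CoxeterSystem M W) {J K : Set B} (hJK : J ⊆ K) : par cs J ≤ par cs K :=
  Subgroup.closure_mono (Set.image_mono hJK)

theorem par_univ (cs : CoxeterSystem M W) : par cs Set.univ = ⊤ := by
  rw [par, Set.image_univ, cs.subgroup_closure_range_simple]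

theorem par_empty (cs : CoxeterSystem M W) : par cs ∅ = ⊥ := by simp [par]

theorem par_induction_right (cs : CoxeterSystem M W) {J : Set B} {P : W → Prop} (h1 : P 1)
    (hs : ∀ w ∈ par cs J, ∀ j ∈ J, P w → P (w * cs.simple j)) {w : W} (hw : w ∈ par cs J) :
    P w := by
  induction hw using Subgroup.closure_induction_right with
  | one => exact h1
  | mul_right x hx y hy ih =>
    obtain ⟨j, hj, rfl⟩ := hy
    exact hs x hx j hj ih
  | mul_inv_cancel x hx y hy ih =>
    obtain ⟨j, hj, rfl⟩ := hy
    rw [inv_simple]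
    exact hs x hx j hj ih

theorem wordProd_mem_par (cs : CoxeterSystem M W) {J : Set B} (ω : List B) (hω : ∀ i ∈ ω, i ∈ J) :
    cs.wordProd ω ∈ par cs J := by
  induction ω with
  | nil => simp
  | cons i ω ih =>
    rw [wordProd_cons]
    exact (par cs J).mul_mem (simple_mem_par cs (hω i (by simp)))
      (ih fun k hk => hω k (by simp [hk]))

namespace CartanCox

variable (h : CartanCox A M) (cs : CoxeterSystem M W)

theorem lin_apply_of_notMem {J : Set B} {w : W} (hw : w ∈ par cs J) {k : B} (hk : k ∉ J)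
    (v : B → ℤ) : h.lin cs w v k = v k := by
  revert v
  refine par_induction_right cs (P := fun w => ∀ v, h.lin cs w v k = v k) ?_ ?_ hw
  · intro v; simp
  · intro w _ j hj ih v
    rw [lin_mul_apply, ih, lin_simple, sig_apply_ne]
    rintro rfl
    exact hk hj

include h in
theorem mem_of_descent {J : Set B} {w : W} (hw : w ∈ par cs J) {i : B}
    (hi : cs.length (w * cs.simple i) < cs.length w) : i ∈ J := by
  by_contra hc
  have h1 := (h.lt_iff_nonpos cs w i).1 hi i
  rw [h.lin_apply_of_notMem cs hw hc] at h1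
  simp at h1

include h in
theorem mem_of_left_descent {J : Set B} {w : W} (hw : w ∈ par cs J) {i : B}
    (hi : cs.length (cs.simple i * w) < cs.length w) : i ∈ J := by
  refine h.mem_of_descent cs ((par cs J).inv_mem hw) ?_
  rw [← cs.length_inv (cs.simple i * w), ← cs.length_inv w] at hi
  simpa using hi

include h in
/-- Induction over the length inside a parabolic subgroup. -/
theorem par_induction_length {J : Set B} {P : W → Prop} (h1 : P 1)
    (hs : ∀ w ∈ par cs J, ∀ j ∈ J, cs.length w < cs.length (w * cs.simple j) → P w →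
      P (w * cs.simple j)) {w : W} (hw : w ∈ par cs J) : P w := by
  induction hn : cs.length w using Nat.strong_induction_on generalizing w with
  | _ n ih =>
  by_cases h0 : w = 1
  · rw [h0]; exact h1
  obtain ⟨j, hj⟩ := cs.exists_rightDescent_of_ne_one h0
  have hjJ := h.mem_of_descent cs hw hj
  have hm : w * cs.simple j ∈ par cs J := (par cs J).mul_mem hw (simple_mem_par cs hjJ)
  have hlt : cs.length (w * cs.simple j) < cs.length w := hj
  have := hs _ hm j hjJ (by simpa using hlt) (ih _ (hn ▸ hlt) hm rfl)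
  simpa using this

theorem eq_sum_single (v : B → ℤ) : v = ∑ j, v j • (Pi.single j 1 : B → ℤ) := by
  funext k
  simp [Finset.sum_apply, Pi.single_apply]

theorem lin_nonneg_of_supp {J : Set B} {d : W} (hd : ∀ j ∈ J, 0 ≤ h.lin cs d (Pi.single j 1))
    {v : B → ℤ} (hv : 0 ≤ v) (hs : ∀ k, k ∉ J → v k = 0) : 0 ≤ h.lin cs d v := by
  rw [eq_sum_single v, map_sum]
  refine Finset.sum_nonneg fun j _ => ?_
  rw [map_smul]
  by_cases hj : j ∈ J
  · exact smul_nonneg (hv j) (hd j hj)
  · rw [hs j hj, zero_smul]

theorem lin_nonpos_of_supp {J : Set B} {d : W} (hd : ∀ j ∈ J, h.lin cs d (Pi.single j 1) ≤ 0)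
    {v : B → ℤ} (hv : 0 ≤ v) (hs : ∀ k, k ∉ J → v k = 0) : h.lin cs d v ≤ 0 := by
  rw [eq_sum_single v, map_sum]
  refine Finset.sum_nonpos fun j _ => ?_
  rw [map_smul]
  by_cases hj : j ∈ J
  · exact smul_nonpos_of_nonneg_of_nonpos (hv j) (hd j hj)
  · rw [hs j hj, zero_smul]

theorem lin_single_supp {J : Set B} {w : W} (hw : w ∈ par cs J) {j : B} (hj : j ∈ J) (k : B)
    (hk : k ∉ J) : h.lin cs w (Pi.single j 1) k = 0 := by
  rw [h.lin_apply_of_notMem cs hw hk]
  have : k ≠ j := by rintro rfl; exact hk hj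
  simp [this]

include h in
/-- Lengths add for a minimal coset representative times an element of the parabolic. -/
theorem length_mul_of_min {J : Set B} {d : W}
    (hd : ∀ j ∈ J, cs.length d < cs.length (d * cs.simple j)) {v : W} (hv : v ∈ par cs J) :
    cs.length (d * v) = cs.length d + cs.length v := by
  refine h.par_induction_length cs (P := fun v => cs.length (d * v) = cs.length d + cs.length v)
    (by simp) ?_ hv
  intro w hw j hj hlt ih
  have h1 : 0 ≤ h.lin cs (d * w) (Pi.single j 1) := by
    rw [lin_mul_apply]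
    exact h.lin_nonneg_of_supp cs (fun j hj => (h.lt_iff_nonneg cs _ _).1 (hd j hj))
      ((h.lt_iff_nonneg cs _ _).1 hlt) (h.lin_single_supp cs hw hj)
  have h2 := (h.lt_iff_nonneg cs _ _).2 h1
  have h3 := cs.length_mul_simple (d * w) j
  have h4 := cs.length_mul_simple w j
  rw [← mul_assoc]
  omega

include h in
theorem length_mul_of_max {J : Set B} {d : W}
    (hd : ∀ j ∈ J, cs.length (d * cs.simple j) < cs.length d) {v : W} (hv : v ∈ par cs J) :
    cs.length (d * v) + cs.length v = cs.length d := by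
  refine h.par_induction_length cs (P := fun v => cs.length (d * v) + cs.length v = cs.length d)
    (by simp) ?_ hv
  intro w hw j hj hlt ih
  have h1 : h.lin cs (d * w) (Pi.single j 1) ≤ 0 := by
    rw [lin_mul_apply]
    exact h.lin_nonpos_of_supp cs (fun j hj => (h.lt_iff_nonpos cs _ _).1 (hd j hj))
      ((h.lt_iff_nonneg cs _ _).1 hlt) (h.lin_single_supp cs hw hj)
  have h2 := (h.lt_iff_nonpos cs _ _).2 h1
  have h3 := cs.length_mul_simple (d * w) j
  have h4 := cs.length_mul_simple w j
  rw [← mul_assoc]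
  omega

end CartanCox

theorem exists_min_decomp (cs : CoxeterSystem M W) (J : Set B) (w : W) :
    ∃ d v : W, v ∈ par cs J ∧ w = d * v ∧ ∀ j ∈ J, cs.length d < cs.length (d * cs.simple j) := by
  classical
  have hex : ∃ n, ∃ v ∈ par cs J, cs.length (w * v) = n := ⟨_, 1, (par cs J).one_mem, rfl⟩
  obtain ⟨v, hv, hn⟩ := Nat.find_spec hex
  refine ⟨w * v, v⁻¹, (par cs J).inv_mem hv, by simp, fun j hj => ?_⟩
  have := Nat.find_min' hex ⟨v * cs.simple j, (par cs J).mul_mem hv (simple_mem_par cs hj), rfl⟩
  rw [← mul_assoc] at this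
  have h2 := cs.length_mul_simple_ne (w * v) j
  omega

namespace CartanCox

variable (h : CartanCox A M) (cs : CoxeterSystem M W)

include h in
theorem min_unique {J : Set B} {d d' : W}
    (hd : ∀ j ∈ J, cs.length d < cs.length (d * cs.simple j))
    (hd' : ∀ j ∈ J, cs.length d' < cs.length (d' * cs.simple j)) (hm : d⁻¹ * d' ∈ par cs J) :
    d = d' := by
  have h1 := h.length_mul_of_min cs hd hm
  have h2 := h.length_mul_of_min cs hd' ((par cs J).inv_mem hm)
  simp only [mul_inv_cancel_left, mul_inv_rev, inv_inv] at h1 h2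
  have h3 : cs.length (d⁻¹ * d') = 0 := by omega
  rw [length_eq_zero_iff] at h3
  exact (inv_mul_eq_one.1 h3)

end CartanCox

/-- `w` is the longest element of `W_J`. -/
def IsLongest (cs : CoxeterSystem M W) (J : Set B) (w : W) : Prop :=
  w ∈ par cs J ∧ ∀ j ∈ J, cs.length (w * cs.simple j) < cs.length w

theorem exists_isLongest (cs : CoxeterSystem M W) [Finite W] (J : Set B) :
    ∃ w, IsLongest cs J w := by
  obtain ⟨w, hw, hmax⟩ := Set.exists_max_image (par cs J : Set W) cs.length (Set.toFinite _)
    ⟨1, (par cs J).one_mem⟩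
  refine ⟨w, hw, fun j hj => ?_⟩
  have := hmax _ ((par cs J).mul_mem hw (simple_mem_par cs hj))
  have h2 := cs.length_mul_simple_ne w j
  omega

namespace CartanCox

variable (h : CartanCox A M) (cs : CoxeterSystem M W)

include h in
theorem longest_le {J : Set B} {w : W} (hw : IsLongest cs J w) {v : W} (hv : v ∈ par cs J) :
    cs.length v ≤ cs.length w := by
  have := h.length_mul_of_max cs hw.2 hv
  omega

include h in
theorem longest_unique {J : Set B} {w w' : W} (hw : IsLongest cs J w) (hw' : IsLongest cs J w') :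
    w = w' := by
  have h1 := h.length_mul_of_max cs hw.2 ((par cs J).mul_mem ((par cs J).inv_mem hw.1) hw'.1)
  have h2 := h.longest_le cs hw' hw.1
  simp only [mul_inv_cancel_left] at h1
  have h3 : cs.length (w⁻¹ * w') = 0 := by omega
  rw [length_eq_zero_iff] at h3
  exact (inv_mul_eq_one.1 h3)

include h in
theorem longest_left {J : Set B} {w : W} (hw : IsLongest cs J w) {j : B} (hj : j ∈ J) :
    cs.length (cs.simple j * w) < cs.length w := by
  have := h.longest_le cs hw ((par cs J).mul_mem (simple_mem_par cs hj) hw.1)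
  have h2 := cs.length_simple_mul_ne w j
  omega

include h in
theorem longest_inv {J : Set B} {w : W} (hw : IsLongest cs J w) : w⁻¹ = w := by
  refine h.longest_unique cs ⟨(par cs J).inv_mem hw.1, fun j hj => ?_⟩ hw
  have := h.longest_left cs hw hj
  rw [← cs.length_inv (cs.simple j * w), ← cs.length_inv w] at this
  simpa using this

include h in
theorem longest_mul_self {J : Set B} {w : W} (hw : IsLongest cs J w) : w * w = 1 := by
  nth_rw 1 [← h.longest_inv cs hw]; simp

end CartanCox

/-! ### Diagram automorphisms -/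

section Aut

variable (cs : CoxeterSystem M W)

theorem length_map_le {τ : W →* W} {ρ : B → B} (hτ : ∀ i, τ (cs.simple i) = cs.simple (ρ i))
    (w : W) : cs.length (τ w) ≤ cs.length w := by
  obtain ⟨ω, hω, rfl⟩ := cs.exists_isReduced w
  have : τ (cs.wordProd ω) = cs.wordProd (ω.map ρ) := by
    clear hω
    induction ω with
    | nil => simp
    | cons i ω ih => simp [wordProd_cons, hτ, ih]
  rw [this, hω.eq]
  simpa using cs.length_wordProd_le (ω.map ρ)

theorem length_map {τ : W ≃* W} {ρ : Equiv.Perm B} (hτ : ∀ i, τ (cs.simple i) = cs.simple (ρ i))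
    (w : W) : cs.length (τ w) = cs.length w := by
  refine le_antisymm (length_map_le cs (τ := τ.toMonoidHom) hτ w) ?_
  have := length_map_le cs (τ := τ.symm.toMonoidHom) (ρ := ρ.symm) (fun i => by
    simp only [MulEquiv.toMonoidHom_eq_coe, MonoidHom.coe_coe]
    rw [MulEquiv.symm_apply_eq, hτ]; simp) (τ w)
  simpa using this

theorem map_mem_par {τ : W →* W} {ρ : B → B} (hτ : ∀ i, τ (cs.simple i) = cs.simple (ρ i))
    {J : Set B} (hJ : ∀ j ∈ J, ρ j ∈ J) {w : W} (hw : w ∈ par cs J) : τ w ∈ par cs J := by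
  refine par_induction_right cs (P := fun w => τ w ∈ par cs J) (by simp) ?_ hw
  intro w _ j hj ih
  rw [map_mul, hτ]
  exact (par cs J).mul_mem ih (simple_mem_par cs (hJ j hj))

/-- The automorphism of `W` induced by a symmetry of the Coxeter matrix. -/
theorem exists_aut (ρ : Equiv.Perm B) (hρ : ∀ i j, M (ρ i) (ρ j) = M i j) :
    ∃ τ : W ≃* W, ∀ i, τ (cs.simple i) = cs.simple (ρ i) := by
  have l1 : M.IsLiftable fun i => cs.simple (ρ i) := fun i j => by
    rw [← hρ]; exact cs.simple_mul_simple_pow _ _
  have l2 : M.IsLiftable fun i => cs.simple (ρ.symm i) := fun i j => by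
    have := hρ (ρ.symm i) (ρ.symm j)
    simp only [Equiv.apply_symm_apply] at this
    rw [this]; exact cs.simple_mul_simple_pow _ _
  refine ⟨MonoidHom.toMulEquiv (cs.lift ⟨_, l1⟩) (cs.lift ⟨_, l2⟩) ?_ ?_, fun i => ?_⟩
  · apply cs.ext_simple; intro i; simp
  · apply cs.ext_simple; intro i; simp
  · simp

variable {cs}

theorem descent_map {τ : W ≃* W} {ρ : Equiv.Perm B} (hτ : ∀ i, τ (cs.simple i) = cs.simple (ρ i))
    {w : W} (hw : τ w = w) (i : B) :
    cs.length (w * cs.simple (ρ i)) = cs.length (w * cs.simple i) := by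
  rw [← length_map cs hτ (w * cs.simple i), map_mul, hw, hτ]

theorem descent_pow {τ : W ≃* W} {ρ : Equiv.Perm B} (hτ : ∀ i, τ (cs.simple i) = cs.simple (ρ i))
    {w : W} (hw : τ w = w) (n : ℕ) (i : B) :
    cs.length (w * cs.simple ((ρ ^ n) i)) = cs.length (w * cs.simple i) := by
  induction n with
  | zero => simp
  | succ n ih => rw [pow_succ', Equiv.Perm.mul_apply, descent_map hτ hw, ih]

theorem left_descent_pow {τ : W ≃* W} {ρ : Equiv.Perm B}
    (hτ : ∀ i, τ (cs.simple i) = cs.simple (ρ i)) {w : W} (hw : τ w = w) (n : ℕ) (i : B) :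
    cs.length (cs.simple ((ρ ^ n) i) * w) = cs.length (cs.simple i * w) := by
  have := descent_pow hτ (w := w⁻¹) (by rw [map_inv, hw]) n i
  rw [← cs.length_inv, ← cs.length_inv (w⁻¹ * _)] at this
  simpa using this

theorem CartanCox.longest_fixed (h : CartanCox A M) {τ : W ≃* W} {ρ : Equiv.Perm B}
    (hτ : ∀ i, τ (cs.simple i) = cs.simple (ρ i)) {J : Set B} (hJ : ∀ j, ρ j ∈ J ↔ j ∈ J) {w : W}
    (hw : IsLongest cs J w) : τ w = w := by
  refine h.longest_unique cs ⟨map_mem_par cs (τ := τ.toMonoidHom) hτ (fun j hj => (hJ j).2 hj) hw.1,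
    fun j hj => ?_⟩ hw
  have h1 := hw.2 (ρ.symm j) ((hJ _).1 (by simpa using hj))
  rw [← length_map cs hτ, ← length_map cs hτ w, map_mul, hτ] at h1
  simpa using h1

/-- Induction over the fixed points of a diagram automorphism: they are reduced products of the
longest elements `w_I` of the orbits `I`. -/
theorem CartanCox.fixed_induction (h : CartanCox A M) {τ : W ≃* W} {ρ : Equiv.Perm B}
    (hτ : ∀ i, τ (cs.simple i) = cs.simple (ρ i)) {K : Set B} {O : Type*} (I : O → Set B)
    (wI : O → W) (hcov : ∀ k ∈ K, ∃ o, k ∈ I o) (hsub : ∀ o, I o ⊆ K)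
    (horb : ∀ o, ∀ i ∈ I o, ∀ i' ∈ I o, ∃ n : ℕ, (ρ ^ n) i = i')
    (hlong : ∀ o, IsLongest cs (I o) (wI o)) (hfix : ∀ o, τ (wI o) = wI o)
    {P : W → Prop} (h1 : P 1)
    (hs : ∀ w ∈ par cs K, τ w = w → ∀ o,
      cs.length (w * wI o) = cs.length w + cs.length (wI o) → P w → P (w * wI o))
    {w : W} (hw : w ∈ par cs K) (hwf : τ w = w) : P w := by
  induction hn : cs.length w using Nat.strong_induction_on generalizing w with
  | _ n ih =>
  by_cases h0 : w = 1
  · rw [h0]; exact h1
  obtain ⟨j, hj⟩ := cs.exists_rightDescent_of_ne_one h0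
  have hjK := h.mem_of_descent cs hw hj
  obtain ⟨o, ho⟩ := hcov j hjK
  have hall : ∀ i ∈ I o, cs.length (w * cs.simple i) < cs.length w := fun i hi => by
    obtain ⟨m, hm⟩ := horb o j ho i hi
    rw [← hm, descent_pow hτ hwf]
    exact hj
  have hl := h.length_mul_of_max cs hall (hlong o).1
  have hpos : 0 < cs.length (wI o) := lt_of_le_of_lt (Nat.zero_le _) ((hlong o).2 j ho)
  have hm : w * wI o ∈ par cs K := (par cs K).mul_mem hw (par_mono cs (hsub o) (hlong o).1)
  have hf : τ (w * wI o) = w * wI o := by rw [map_mul, hwf, hfix]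
  have e : w * wI o * wI o = w := by rw [mul_assoc, h.longest_mul_self cs (hlong o), mul_one]
  have := hs _ hm hf o (by rw [e]; omega) (ih _ (by omega) hm hf rfl)
  rwa [e] at this

end Aut

end CA.Weyl
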