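import Cfsg.Agent.Lib.Weyl.Parab

/-!
Poincaré polynomials of (fixed points of diagram automorphisms on) parabolic subgroups, by a chain of
parabolic subgroups and orbit certificates on the weight lattice.
-/

set_option autoImplicit false
set_option linter.unusedSectionVars false

namespace CA.Weyl

open CoxeterSystem

variable {B : Type*} [Fintype B] [DecidableEq B]
variable {A : B → B → ℤ} {M : CoxeterMatrix B} {W : Type*} [Group W]

namespace CartanCox

variable (h : CartanCox A M) (cs : CoxeterSystem M W)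

/-- The action on the weight lattice (coordinates on the fundamental weights). -/
noncomputable def act (w : W) (μ : B → ℤ) : B → ℤ :=
  fun i => μ ⬝ᵥ h.lin cs w⁻¹ (Pi.single i 1)

theorem act_dot (w : W) (μ v : B → ℤ) : h.act cs w μ ⬝ᵥ v = μ ⬝ᵥ h.lin cs w⁻¹ v := by
  conv_rhs => rw [eq_sum_single v, map_sum, dotProduct_sum]
  simp only [map_smul, dotProduct_smul, smul_eq_mul]
  simp only [dotProduct, act]
  exact Finset.sum_congr rfl fun j _ => by rw [mul_comm]

theorem act_one (μ : B → ℤ) : h.act cs 1 μ = μ := by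
  funext i; simp [act]

theorem act_mul (w w' : W) (μ : B → ℤ) : h.act cs (w * w') μ = h.act cs w (h.act cs w' μ) := by
  funext i
  rw [act, act, act_dot, mul_inv_rev, lin_mul_apply]

theorem act_simple (i : B) (μ : B → ℤ) :
    h.act cs (cs.simple i) μ = fun k => μ k - A k i * μ i := by
  funext k
  rw [act, inv_simple, lin_simple, sig_apply, phi_single, dotProduct_sub, dotProduct_smul]
  simp

theorem act_eq_of_mem {J : Set B} {μ : B → ℤ} (hμ : ∀ j ∈ J, μ j = 0) {v : W}
    (hv : v ∈ par cs J) : h.act cs v μ = μ := by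
  refine par_induction_right cs (P := fun v => h.act cs v μ = μ) (h.act_one cs μ) ?_ hv
  intro w _ j hj ih
  rw [act_mul, act_simple]
  simp only [hμ j hj, mul_zero, sub_zero]
  exact ih

theorem dot_nonneg_supp {K : Set B} {μ v : B → ℤ} (hμ : ∀ i ∈ K, 0 ≤ μ i) (hv : 0 ≤ v)
    (hs : ∀ k, k ∉ K → v k = 0) : 0 ≤ μ ⬝ᵥ v := by
  refine Finset.sum_nonneg fun k _ => ?_
  by_cases hk : k ∈ K
  · exact mul_nonneg (hμ k hk) (hv k)
  · simp [hs k hk]

theorem dot_nonpos_supp {K : Set B} {μ v : B → ℤ} (hμ : ∀ i ∈ K, 0 ≤ μ i) (hv : v ≤ 0)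
    (hs : ∀ k, k ∉ K → v k = 0) : μ ⬝ᵥ v ≤ 0 := by
  have := dot_nonneg_supp hμ (v := -v) (neg_nonneg.2 hv) (fun k hk => by simp [hs k hk])
  simpa using this

theorem mem_par_of_act_eq {K J : Set B} {μ : B → ℤ} (hμ : ∀ i ∈ K, 0 ≤ μ i)
    (hJ : ∀ i ∈ K, μ i = 0 → i ∈ J) {w : W} (hw : w ∈ par cs K) (he : h.act cs w μ = μ) :
    w ∈ par cs J := by
  revert he
  refine h.par_induction_length cs (P := fun w => h.act cs w μ = μ → w ∈ par cs J)
    (fun _ => (par cs J).one_mem) ?_ hw
  intro w hw j hj hlt ih he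
  have hm : w * cs.simple j ∈ par cs K := (par cs K).mul_mem hw (simple_mem_par cs hj)
  have hneg : h.lin cs (w * cs.simple j) (Pi.single j 1) ≤ 0 :=
    (h.lt_iff_nonpos cs _ _).1 (by simpa using hlt)
  have h1 := dot_nonpos_supp hμ hneg (h.lin_single_supp cs hm hj)
  have h2 : μ ⬝ᵥ h.lin cs (w * cs.simple j) (Pi.single j 1) = μ j := by
    conv_lhs => rw [← he]
    rw [act_dot, lin_inv_lin]; simp
  have h3 : μ j = 0 := le_antisymm (h2 ▸ h1) (hμ j hj)
  have h4 : h.act cs (cs.simple j) μ = μ := by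
    rw [act_simple]; simp [h3]
  rw [act_mul, h4] at he
  exact (par cs J).mul_mem (ih he) (simple_mem_par cs (hJ j hj h3))

theorem left_lt_of_act_pos {K : Set B} {μ : B → ℤ} (hμ : ∀ i ∈ K, 0 ≤ μ i) {d : W}
    (hd : d ∈ par cs K) {i : B} (hi : i ∈ K) (hp : 0 < h.act cs d μ i) :
    cs.length d < cs.length (cs.simple i * d) := by
  have h1 : 0 ≤ h.lin cs d⁻¹ (Pi.single i 1) := by
    rcases h.nonneg_or_nonpos cs d⁻¹ i with h1 | h1
    · exact h1
    · have := dot_nonpos_supp hμ h1 (h.lin_single_supp cs ((par cs K).inv_mem hd) hi)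
      unfold act at hp
      omega
  have h2 := (h.lt_iff_nonneg cs _ _).2 h1
  rw [← cs.length_inv, ← cs.length_inv (d⁻¹ * _)] at h2
  simpa using h2

theorem act_nonneg_of_left_lt {K : Set B} {μ : B → ℤ} (hμ : ∀ i ∈ K, 0 ≤ μ i) {d : W}
    (hd : d ∈ par cs K) {i : B} (hi : i ∈ K) (hp : cs.length d < cs.length (cs.simple i * d)) :
    0 ≤ h.act cs d μ i := by
  have h2 : cs.length d⁻¹ < cs.length (d⁻¹ * cs.simple i) := by
    rw [← cs.length_inv, ← cs.length_inv (d⁻¹ * _)]
    simpa using hp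
  exact dot_nonneg_supp hμ ((h.lt_iff_nonneg cs _ _).1 h2)
    (h.lin_single_supp cs ((par cs K).inv_mem hd) hi)

include h in
theorem length_mul_of_min_left {I : Set B} {d : W}
    (hd : ∀ i ∈ I, cs.length d < cs.length (cs.simple i * d)) {v : W} (hv : v ∈ par cs I) :
    cs.length (v * d) = cs.length v + cs.length d := by
  have := h.length_mul_of_min cs (J := I) (d := d⁻¹) (fun i hi => by
    have := hd i hi
    rw [← cs.length_inv, ← cs.length_inv (_ * d)] at this
    simpa using this) ((par cs I).inv_mem hv)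
  rw [← mul_inv_rev, length_inv, length_inv, length_inv] at this
  omega

include h in
theorem length_mul_of_max_left {I : Set B} {d : W}
    (hd : ∀ i ∈ I, cs.length (cs.simple i * d) < cs.length d) {v : W} (hv : v ∈ par cs I) :
    cs.length (v * d) + cs.length v = cs.length d := by
  have := h.length_mul_of_max cs (J := I) (d := d⁻¹) (fun i hi => by
    have := hd i hi
    rw [← cs.length_inv, ← cs.length_inv d] at this
    simpa using this) ((par cs I).inv_mem hv)
  rw [← mul_inv_rev, length_inv, length_inv, length_inv] at this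
  omega

/-- Going up along a generator keeps us among the minimal coset representatives. -/
theorem min_step_up {J I : Set B} {μ : B → ℤ} (hJ : ∀ j ∈ J, μ j = 0) {d u : W}
    (hd : ∀ j ∈ J, cs.length d < cs.length (d * cs.simple j)) (hu : u ∈ par cs I)
    (hp : ∀ i ∈ I, 0 < h.act cs d μ i) :
    ∀ j ∈ J, cs.length (u * d) < cs.length (u * d * cs.simple j) := by
  intro j hj
  rw [h.lt_iff_nonneg]
  rcases h.nonneg_or_nonpos cs (u * d) j with h1 | h1
  · exact h1
  exfalso
  set β := h.lin cs d (Pi.single j 1) with hβ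
  have hβ0 : 0 ≤ β := (h.lt_iff_nonneg cs _ _).1 (hd j hj)
  rw [lin_mul_apply, ← hβ] at h1
  have hs : ∀ k, k ∉ I → β k = 0 := fun k hk => by
    have a := h1 k
    rw [h.lin_apply_of_notMem cs hu hk] at a
    exact le_antisymm a (hβ0 k)
  have h2 : h.act cs d μ ⬝ᵥ β = 0 := by
    rw [act_dot, hβ, lin_inv_lin]; simp [hJ j hj]
  apply h.lin_single_ne_zero cs d j
  rw [← hβ]
  funext k
  by_cases hk : k ∈ I
  · have h3 := (Finset.sum_eq_zero_iff_of_nonneg (s := Finset.univ)
      (f := fun k => h.act cs d μ k * β k) (fun k _ => by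
        by_cases hk : k ∈ I
        · exact mul_nonneg (hp k hk).le (hβ0 k)
        · simp [hs k hk])).1 h2 k (Finset.mem_univ _)
    rcases mul_eq_zero.1 h3 with h4 | h4
    · exact absurd h4 (hp k hk).ne'
    · exact h4
  · exact hs k hk

/-- Going down along a generator. -/
theorem min_step_down {K J I : Set B} {μ : B → ℤ} (hμ : ∀ i ∈ K, 0 ≤ μ i)
    (hJ : ∀ i ∈ K, μ i = 0 → i ∈ J) (hIK : I ⊆ K) {d u : W} (hdK : d ∈ par cs K)
    (hd : ∀ j ∈ J, cs.length d < cs.length (d * cs.simple j)) (hu : IsLongest cs I u)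
    (hall : ∀ i ∈ I, cs.length (cs.simple i * d) < cs.length d) :
    cs.length (u * d) + cs.length u = cs.length d ∧
    (∀ j ∈ J, cs.length (u * d) < cs.length (u * d * cs.simple j)) ∧
    ∀ i ∈ I, 0 < h.act cs (u * d) μ i := by
  have hl := h.length_mul_of_max_left cs hall hu.1
  have huu := h.longest_mul_self cs hu
  have hmin : ∀ j ∈ J, cs.length (u * d) < cs.length (u * d * cs.simple j) := by
    intro j hj
    have a := cs.length_mul_simple_ne (u * d) j
    have b := cs.length_mul_le u (u * d * cs.simple j)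
    rw [← mul_assoc, ← mul_assoc, huu, one_mul] at b
    have c := hd j hj
    omega
  refine ⟨hl, hmin, fun i hi => ?_⟩
  have hK' : u * d ∈ par cs K := (par cs K).mul_mem (par_mono cs hIK hu.1) hdK
  have hl2 := h.length_mul_of_max_left cs hall
    ((par cs I).mul_mem (simple_mem_par cs hi) hu.1)
  have hl3 := h.longest_left cs hu hi
  have hlt : cs.length (u * d) < cs.length (cs.simple i * (u * d)) := by
    rw [← mul_assoc]; omega
  refine lt_of_le_of_ne (h.act_nonneg_of_left_lt cs hμ hK' (hIK hi) hlt) fun h0 => ?_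
  -- then `s_i` fixes the weight
  have hfix : h.act cs (cs.simple i * (u * d)) μ = h.act cs (u * d) μ := by
    rw [act_mul, act_simple]; simp [← h0]
  set v := (u * d)⁻¹ * (cs.simple i * (u * d)) with hv
  have hvK : v ∈ par cs K := (par cs K).mul_mem ((par cs K).inv_mem hK')
    ((par cs K).mul_mem (simple_mem_par cs (hIK hi)) hK')
  have hvJ : v ∈ par cs J := h.mem_par_of_act_eq cs hμ hJ hvK (by
    rw [hv, act_mul, hfix, ← act_mul, inv_mul_cancel, act_one])
  have e1 := h.length_mul_of_min cs hmin hvJ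
  rw [hv, mul_inv_cancel_left, ← hv] at e1
  have e2 := h.length_mul_of_min cs hd ((par cs J).inv_mem hvJ)
  have e3 : d * v⁻¹ = (u * cs.simple i) * (u * d) := by
    have hu' := h.longest_inv cs hu
    rw [hv]
    simp only [mul_inv_rev, inv_inv, inv_simple, hu']
    group
  have e4 := cs.length_mul_le (u * cs.simple i) (u * d)
  have e5 := hu.2 i hi
  rw [e3] at e2
  omega

theorem min_inj {K J : Set B} {μ : B → ℤ} (hμ : ∀ i ∈ K, 0 ≤ μ i)
    (hJ : ∀ i ∈ K, μ i = 0 → i ∈ J) {d d' : W} (hdK : d ∈ par cs K) (hdK' : d' ∈ par cs K)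
    (hd : ∀ j ∈ J, cs.length d < cs.length (d * cs.simple j))
    (hd' : ∀ j ∈ J, cs.length d' < cs.length (d' * cs.simple j))
    (he : h.act cs d μ = h.act cs d' μ) : d = d' := by
  refine h.min_unique cs hd hd' (h.mem_par_of_act_eq cs hμ hJ
    ((par cs K).mul_mem ((par cs K).inv_mem hdK) hdK') ?_)
  rw [act_mul, ← he, ← act_mul, inv_mul_cancel, act_one]

end CartanCox

/-- The set `S` is finite with length generating function `f`. -/
def HasPoin (cs : CoxeterSystem M W) (S : Set W) (f : ℝ → ℝ) : Prop :=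
  ∃ F : Finset W, (∀ w, w ∈ F ↔ w ∈ S) ∧ ∀ x : ℝ, ∑ w ∈ F, x ^ cs.length w = f x

theorem hasPoin_empty (cs : CoxeterSystem M W) (τ : W ≃* W) :
    HasPoin cs {w | w ∈ par cs ∅ ∧ τ w = w} fun _ => 1 := by
  refine ⟨{1}, fun w => ?_, fun x => by simp⟩
  simp only [par_empty, Finset.mem_singleton, Subgroup.mem_bot, Set.mem_ofPred_eq]
  constructor
  · rintro rfl; simp
  · exact fun h => h.1

theorem HasPoin.congr {cs : CoxeterSystem M W} {S : Set W} {f g : ℝ → ℝ} (hf : HasPoin cs S f)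
    (hfg : ∀ x, f x = g x) : HasPoin cs S g := by
  obtain ⟨F, h1, h2⟩ := hf
  exact ⟨F, h1, fun x => (h2 x).trans (hfg x)⟩

theorem HasPoin.congr_set {cs : CoxeterSystem M W} {S S' : Set W} {f : ℝ → ℝ} (hf : HasPoin cs S f)
    (hS : ∀ w, w ∈ S ↔ w ∈ S') : HasPoin cs S' f := by
  obtain ⟨F, h1, h2⟩ := hf
  exact ⟨F, fun w => (h1 w).trans (hS w), h2⟩

theorem HasPoin.ncard {cs : CoxeterSystem M W} {S : Set W} {f : ℝ → ℝ} (hf : HasPoin cs S f) :
    (Nat.card S : ℝ) = f 1 := by
  obtain ⟨F, h1, h2⟩ := hf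
  have : S = (F : Set W) := Set.ext fun w => by simp [h1]
  rw [← h2 1, this]
  simp

theorem HasPoin.finite {cs : CoxeterSystem M W} {S : Set W} {f : ℝ → ℝ} (hf : HasPoin cs S f) :
    S.Finite := by
  obtain ⟨F, h1, -⟩ := hf
  have : S = (F : Set W) := Set.ext fun w => by simp [h1]
  rw [this]; exact F.finite_toSet

/-- One step in a chain of parabolic subgroups. -/
theorem CartanCox.poin_step (h : CartanCox A M) (cs : CoxeterSystem M W) {τ : W ≃* W}
    {ρ : Equiv.Perm B} (hτ : ∀ i, τ (cs.simple i) = cs.simple (ρ i)) {K J : Set B} (hJK : J ⊆ K)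
    (hJρ : ∀ j, ρ j ∈ J ↔ j ∈ J) {O : Type*} (I : O → Set B) (wI : O → W) (len : O → ℕ)
    (hcov : ∀ k ∈ K, ∃ o, k ∈ I o) (hsub : ∀ o, I o ⊆ K)
    (horb : ∀ o, ∀ i ∈ I o, ∀ i' ∈ I o, ∃ n : ℕ, (ρ ^ n) i = i')
    (hlong : ∀ o, IsLongest cs (I o) (wI o)) (hfix : ∀ o, τ (wI o) = wI o)
    (hlen : ∀ o, cs.length (wI o) = len o) (hpos : ∀ o, 0 < len o)
    {μ : B → ℤ} (hμ : ∀ i ∈ K, 0 ≤ μ i) (hJ : ∀ i ∈ K, μ i = 0 → i ∈ J) (hJ' : ∀ j ∈ J, μ j = 0)
    {V : Type*} (enc : (B → ℤ) → V) (henc : Function.Injective enc) (step : O → V → V)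
    (hstep : ∀ o ν, step o (enc ν) = enc (h.act cs (wI o) ν)) (posb : O → V → Prop)
    (hposb : ∀ o ν, posb o (enc ν) ↔ ∀ i ∈ I o, 0 < ν i)
    (T : List (V × ℕ)) (hT : T.Nodup) (hT0 : (enc μ, 0) ∈ T)
    (hT1 : ∀ p ∈ T, ∀ o, posb o p.1 → (step o p.1, p.2 + len o) ∈ T)
    (hT2 : ∀ p ∈ T, p = (enc μ, 0) ∨ ∃ o, posb o (step o p.1) ∧ step o (step o p.1) = p.1 ∧
      len o ≤ p.2 ∧ (step o p.1, p.2 - len o) ∈ T)
    {f : ℝ → ℝ} (hf : HasPoin cs {w | w ∈ par cs J ∧ τ w = w} f) :
    HasPoin cs {w | w ∈ par cs K ∧ τ w = w} fun x => (T.map fun p => x ^ p.2).sum * f x := by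
  classical
  obtain ⟨FJ, hFJ, hsum⟩ := hf
  -- the fixed minimal coset representatives
  let D : Set W := {d | d ∈ par cs K ∧ τ d = d ∧
    ∀ j ∈ J, cs.length d < cs.length (d * cs.simple j)}
  let g : W → V × ℕ := fun d => (enc (h.act cs d μ), cs.length d)
  have hup : ∀ d ∈ D, ∀ o, (∀ i ∈ I o, 0 < h.act cs d μ i) →
      wI o * d ∈ D ∧ cs.length (wI o * d) = cs.length d + len o := by
    rintro d ⟨hdK, hdf, hd⟩ o hp
    refine ⟨⟨(par cs K).mul_mem (par_mono cs (hsub o) (hlong o).1) hdK, by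
      rw [map_mul, hfix, hdf], h.min_step_up cs hJ' hd (hlong o).1 hp⟩, ?_⟩
    rw [h.length_mul_of_min_left cs (fun i hi =>
      h.left_lt_of_act_pos cs hμ hdK (hsub o hi) (hp i hi)) (hlong o).1, hlen, add_comm]
  have hmaps : ∀ n, ∀ d ∈ D, cs.length d = n → g d ∈ T := by
    intro n
    induction n using Nat.strong_induction_on with
    | _ n ih =>
    rintro d ⟨hdK, hdf, hd⟩ hn
    by_cases h0 : d = 1
    · subst h0
      simpa [g, h.act_one] using hT0
    obtain ⟨i, hi⟩ := cs.exists_leftDescent_of_ne_one h0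
    have hiK := h.mem_of_left_descent cs hdK hi
    obtain ⟨o, ho⟩ := hcov i hiK
    have hall : ∀ i' ∈ I o, cs.length (cs.simple i' * d) < cs.length d := fun i' hi' => by
      obtain ⟨m, hm⟩ := horb o i ho i' hi'
      rw [← hm, left_descent_pow hτ hdf]
      exact hi
    obtain ⟨h1, h2, h3⟩ := h.min_step_down cs hμ hJ (hsub o) hdK hd (hlong o) hall
    have hD : wI o * d ∈ D := ⟨(par cs K).mul_mem (par_mono cs (hsub o) (hlong o).1) hdK, by
      rw [map_mul, hfix, hdf], h2⟩
    have hp := hpos o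
    rw [hlen] at h1
    have := hT1 _ (ih _ (by omega) _ hD rfl) o ((hposb o _).2 h3)
    simp only [g] at this ⊢
    rw [hstep, ← h.act_mul, ← mul_assoc, h.longest_mul_self cs (hlong o), one_mul, h1] at this
    exact this
  have hsurj : ∀ n, ∀ p ∈ T, p.2 = n → ∃ d ∈ D, g d = p := by
    intro n
    induction n using Nat.strong_induction_on with
    | _ n ih =>
    intro p hp hn
    rcases hT2 p hp with h1 | ⟨o, h1, h2, h3, h4⟩
    · refine ⟨1, ⟨(par cs K).one_mem, map_one τ, fun j _ => by simp⟩, ?_⟩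
      simp [g, h.act_one, h1]
    · have hp := hpos o
      obtain ⟨d, hd, hgd⟩ := ih _ (by simp only; omega) _ h4 rfl
      simp only [g, Prod.mk.injEq] at hgd
      rw [← hgd.1, hposb] at h1
      obtain ⟨h5, h6⟩ := hup d hd o h1
      refine ⟨_, h5, Prod.ext ?_ ?_⟩
      · simp only [g]
        rw [h.act_mul, ← hstep, hgd.1, h2]
      · simp only [g]
        omega
  have hinj : ∀ d ∈ D, ∀ d' ∈ D, g d = g d' → d = d' := by
    rintro d ⟨hdK, -, hd⟩ d' ⟨hdK', -, hd'⟩ he
    simp only [g, Prod.mk.injEq] at he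
    exact h.min_inj cs hμ hJ hdK hdK' hd hd' (henc he.1)
  have hDfin : D.Finite := Set.Finite.of_finite_image (f := g)
    ((T.finite_toSet).subset (by rintro _ ⟨d, hd, rfl⟩; exact hmaps _ d hd rfl)) hinj
  let FD := hDfin.toFinset
  have hFD : ∀ d, d ∈ FD ↔ d ∈ D := fun d => hDfin.mem_toFinset
  refine ⟨(FD ×ˢ FJ).image fun p => p.1 * p.2, fun w => ?_, fun x => ?_⟩
  · simp only [Finset.mem_image, Finset.mem_product, hFD, hFJ, Set.mem_ofPred_eq, Prod.exists]
    constructor
    · rintro ⟨d, v, ⟨⟨hdK, hdf, -⟩, hv, hvf⟩, rfl⟩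
      exact ⟨(par cs K).mul_mem hdK (par_mono cs hJK hv), by rw [map_mul, hdf, hvf]⟩
    · rintro ⟨hw, hwf⟩
      obtain ⟨d, v, hv, rfl, hd⟩ := exists_min_decomp cs J w
      have hτv : τ v ∈ par cs J :=
        map_mem_par cs (τ := τ.toMonoidHom) hτ (fun j hj => (hJρ j).2 hj) hv
      have hτd : τ d = d := by
        refine h.min_unique cs (J := J) (fun j hj => ?_) hd ?_
        · have h1 := hd (ρ.symm j) ((hJρ _).1 (by simpa using hj))
          rw [← length_map cs hτ, ← length_map cs hτ (d * _), map_mul, hτ] at h1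
          simpa using h1
        · have : (τ d)⁻¹ * d = τ v * v⁻¹ := by
            rw [map_mul] at hwf
            calc (τ d)⁻¹ * d = (τ d)⁻¹ * (d * v) * v⁻¹ := by group
              _ = τ v * v⁻¹ := by rw [← hwf]; group
          rw [this]
          exact (par cs J).mul_mem hτv ((par cs J).inv_mem hv)
      refine ⟨d, v, ⟨⟨?_, hτd, hd⟩, hv, ?_⟩, rfl⟩
      · have := (par cs K).mul_mem hw ((par cs K).inv_mem (par_mono cs hJK hv))
        simpa using this
      · rw [map_mul, hτd] at hwf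
        exact mul_left_cancel hwf
  · beta_reduce
    rw [Finset.sum_image, Finset.sum_product, ← hsum x, Finset.mul_sum]
    · rw [Finset.sum_comm]
      refine Finset.sum_congr rfl fun v hv => ?_
      have hv' := ((hFJ v).1 hv).1
      have e : ∀ d ∈ FD, x ^ cs.length (d * v) = x ^ (g d).2 * x ^ cs.length v := by
        intro d hd
        rw [h.length_mul_of_min cs ((hFD d).1 hd).2.2 hv', pow_add]
      rw [Finset.sum_congr rfl e, ← Finset.sum_mul]
      congr 1
      rw [← List.sum_toFinset _ hT]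
      refine Finset.sum_bij (fun d _ => g d) (fun d hd => ?_) (fun d hd d' hd' he => ?_)
        (fun p hp => ?_) (fun d _ => rfl)
      · exact List.mem_toFinset.2 (hmaps _ d ((hFD d).1 hd) rfl)
      · exact hinj d ((hFD d).1 hd) d' ((hFD d').1 hd') he
      · obtain ⟨d, hd, e⟩ := hsurj _ p (List.mem_toFinset.1 hp) rfl
        exact ⟨d, (hFD d).2 hd, e⟩
    · rintro ⟨d, v⟩ hp ⟨d', v'⟩ hp' he
      simp only [Finset.coe_product, Set.mem_prod, Finset.mem_coe, hFD, hFJ,
        Set.mem_ofPred_eq] at hp hp' he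
      have : d = d' := by
        refine h.min_unique cs hp.1.2.2 hp'.1.2.2 ?_
        have : d⁻¹ * d' = v * v'⁻¹ := by
          calc d⁻¹ * d' = d⁻¹ * (d' * v') * v'⁻¹ := by group
            _ = v * v'⁻¹ := by rw [← he]; group
        rw [this]
        exact (par cs J).mul_mem hp.2.1 ((par cs J).inv_mem hp'.2.1)
      subst this
      exact Prod.ext rfl (mul_left_cancel he)

end CA.Weyl
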