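import Cfsg.Agent.Lib.Weyl.Poin

/-!
A Boolean checker for the orbit certificates of `CartanCox.poin_step` when the nodes are `Fin n`.
-/

set_option autoImplicit false
set_option linter.unusedSectionVars false

namespace CA.Weyl

open CoxeterSystem

/-- Simple reflection on a weight given as a list. -/
def swL (cols : List (List ℤ)) (i : ℕ) (l : List ℤ) : List ℤ :=
  List.zipWith (fun m a => m - a * l.getD i 0) l (cols.getD i [])

/-- A word of simple reflections applied to a weight given as a list. -/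
def stepW {n : ℕ} (cols : List (List ℤ)) (ω : List (Fin n)) (l : List ℤ) : List ℤ :=
  ω.foldr (fun i l => swL cols i.val l) l

/-- Reducedness check for a word. -/
def redb {n : ℕ} (cols : List (List ℤ)) : List (Fin n) → Bool
  | [] => true
  | i :: ω => decide (0 < (stepW cols ω (List.replicate n 1)).getD i.val 0) && redb cols ω

/-- The word `o.2` is a reduced word for the longest element of the parabolic on `o.1`. -/
def longb {n : ℕ} (cols : List (List ℤ)) (o : List (Fin n) × List (Fin n)) : Bool :=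
  redb cols o.2 && o.2.all (fun i => o.1.contains i) &&
    o.1.all (fun j => decide ((stepW cols o.2 (List.replicate n 1)).getD j.val 0 < 0)) &&
    !o.1.isEmpty

def posb {n : ℕ} (I : List (Fin n)) (l : List ℤ) : Bool := I.all fun i => decide (0 < l.getD i.val 0)

def eqb (p q : List ℤ × ℕ) : Bool := Nat.beq p.2 q.2 && decide (p.1 = q.1)

def memb (p : List ℤ × ℕ) (T : List (List ℤ × ℕ)) : Bool := T.any fun q => eqb p q

def nodupb : List (List ℤ × ℕ) → Bool
  | [] => true
  | p :: T => !memb p T && nodupb T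

/-- The orbit certificate check. -/
def orbb {n : ℕ} (cols : List (List ℤ)) (Os : List (List (Fin n) × List (Fin n))) (μ : List ℤ)
    (T : List (List ℤ × ℕ)) : Bool :=
  nodupb T && memb (μ, 0) T &&
    T.all (fun p => Os.all fun o => !posb o.1 p.1 || memb (stepW cols o.2 p.1, p.2 + o.2.length) T) &&
    T.all (fun p => eqb p (μ, 0) || Os.any fun o =>
      posb o.1 (stepW cols o.2 p.1) && decide (stepW cols o.2 (stepW cols o.2 p.1) = p.1) &&
        Nat.ble o.2.length p.2 && memb (stepW cols o.2 p.1, p.2 - o.2.length) T)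

theorem eqb_iff (p q : List ℤ × ℕ) : eqb p q = true ↔ p = q := by
  obtain ⟨a, b⟩ := p
  obtain ⟨c, d⟩ := q
  simp [eqb, and_comm]

theorem memb_iff (p : List ℤ × ℕ) (T : List (List ℤ × ℕ)) : memb p T = true ↔ p ∈ T := by
  simp [memb, eqb_iff]

theorem nodupb_iff (T : List (List ℤ × ℕ)) : nodupb T = true ↔ T.Nodup := by
  induction T with
  | nil => simp [nodupb]
  | cons p T ih =>
    rw [nodupb, Bool.and_eq_true, ih, List.nodup_cons, ← memb_iff]
    simp

theorem getD_ofFn {n : ℕ} (μ : Fin n → ℤ) (i : Fin n) : (List.ofFn μ).getD i.val 0 = μ i := by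
  simp [List.getD_eq_getElem?_getD]

variable {n : ℕ} {A : Fin n → Fin n → ℤ} {M : CoxeterMatrix (Fin n)} {W : Type*} [Group W]

theorem swL_ofFn {cols : List (List ℤ)} (hc : ∀ i : Fin n, cols.getD i.val [] = List.ofFn fun k => A k i)
    (i : Fin n) (μ : Fin n → ℤ) :
    swL cols i.val (List.ofFn μ) = List.ofFn fun k => μ k - A k i * μ i := by
  rw [swL, hc, getD_ofFn]
  apply List.ext_getElem <;> simp

theorem CartanCox.stepW_ofFn (h : CartanCox A M) (cs : CoxeterSystem M W) {cols : List (List ℤ)}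
    (hc : ∀ i : Fin n, cols.getD i.val [] = List.ofFn fun k => A k i) (ω : List (Fin n))
    (μ : Fin n → ℤ) : stepW cols ω (List.ofFn μ) = List.ofFn (h.act cs (cs.wordProd ω) μ) := by
  induction ω with
  | nil => simp [stepW, h.act_one]
  | cons i ω ih =>
    rw [wordProd_cons, h.act_mul, h.act_simple, ← swL_ofFn hc, ← ih]
    rfl

theorem replicate_eq_ofFn : List.replicate n (1 : ℤ) = List.ofFn fun _ : Fin n => (1 : ℤ) := by
  simp

theorem CartanCox.length_of_redb (h : CartanCox A M) (cs : CoxeterSystem M W) {cols : List (List ℤ)}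
    (hc : ∀ i : Fin n, cols.getD i.val [] = List.ofFn fun k => A k i) (ω : List (Fin n))
    (hω : redb cols ω = true) : cs.length (cs.wordProd ω) = ω.length := by
  induction ω with
  | nil => simp
  | cons i ω ih =>
    rw [redb, Bool.and_eq_true, decide_eq_true_iff, replicate_eq_ofFn, h.stepW_ofFn cs hc,
      getD_ofFn] at hω
    have h1 := h.left_lt_of_act_pos cs (K := Set.univ) (fun _ _ => zero_le_one)
      (by rw [par_univ]; trivial) (Set.mem_univ i) hω.1
    have h2 := cs.length_simple_mul (cs.wordProd ω) i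
    have h3 := ih hω.2
    rw [wordProd_cons, List.length_cons]
    omega

theorem CartanCox.isLongest_of_longb (h : CartanCox A M) (cs : CoxeterSystem M W)
    {cols : List (List ℤ)} (hc : ∀ i : Fin n, cols.getD i.val [] = List.ofFn fun k => A k i)
    (o : List (Fin n) × List (Fin n)) (ho : longb cols o = true) :
    IsLongest cs {i | i ∈ o.1} (cs.wordProd o.2) ∧ cs.length (cs.wordProd o.2) = o.2.length ∧
      0 < o.2.length := by
  simp only [longb, Bool.and_eq_true, List.all_eq_true, List.contains_iff_mem,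
    decide_eq_true_iff, Bool.not_eq_true', List.isEmpty_eq_false_iff] at ho
  obtain ⟨⟨⟨h1, h2⟩, h3⟩, h4⟩ := ho
  have hm : cs.wordProd o.2 ∈ par cs {i | i ∈ o.1} := wordProd_mem_par cs _ h2
  have hl : IsLongest cs {i | i ∈ o.1} (cs.wordProd o.2)⁻¹ := by
    refine ⟨(par cs _).inv_mem hm, fun j hj => ?_⟩
    have h5 := h3 j hj
    rw [replicate_eq_ofFn, h.stepW_ofFn cs hc, getD_ofFn] at h5
    have h6 : cs.length (cs.simple j * cs.wordProd o.2) < cs.length (cs.wordProd o.2) := by
      by_contra hc'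
      have h7 := cs.length_simple_mul_ne (cs.wordProd o.2) j
      have := h.act_nonneg_of_left_lt cs (K := Set.univ) (μ := fun _ => 1) (fun _ _ => zero_le_one)
        (d := cs.wordProd o.2) (by rw [par_univ]; trivial) (Set.mem_univ j) (by omega)
      omega
    rw [← cs.length_inv, ← cs.length_inv (cs.wordProd o.2)] at h6
    simpa using h6
  have := h.longest_inv cs hl
  rw [inv_inv] at this
  rw [← this] at hl
  have hlen := h.length_of_redb cs hc _ h1
  refine ⟨hl, hlen, ?_⟩
  obtain ⟨j, hj⟩ := List.exists_mem_of_ne_nil _ h4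
  have := hl.2 j hj
  omega

/-- One step in a chain of parabolic subgroups, from a Boolean certificate. -/
theorem CartanCox.poin_step_fin (h : CartanCox A M) (cs : CoxeterSystem M W) {τ : W ≃* W}
    {ρ : Equiv.Perm (Fin n)} (hτ : ∀ i, τ (cs.simple i) = cs.simple (ρ i))
    {cols : List (List ℤ)} (hc : ∀ i : Fin n, cols.getD i.val [] = List.ofFn fun k => A k i)
    (K J : List (Fin n)) (Os : List (List (Fin n) × List (Fin n))) (μ : Fin n → ℤ)
    (T : List (List ℤ × ℕ)) (ls : List ℕ)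
    (h1 : (∀ j ∈ J, j ∈ K) ∧ (∀ j, ρ j ∈ J ↔ j ∈ J) ∧ (∀ k ∈ K, ∃ o ∈ Os, k ∈ o.1) ∧
      (∀ o ∈ Os, (∀ i ∈ o.1, i ∈ K) ∧ (∀ j, ρ j ∈ o.1 ↔ j ∈ o.1) ∧
        (∀ i ∈ o.1, ∀ i' ∈ o.1, i = i' ∨ ρ i = i' ∨ ρ (ρ i) = i') ∧ longb cols o = true) ∧
      (∀ i ∈ K, 0 ≤ μ i ∧ (μ i = 0 → i ∈ J)) ∧ (∀ j ∈ J, μ j = 0))
    (h2 : orbb cols Os (List.ofFn μ) T = true) (h3 : T.map Prod.snd = ls)
    {f : ℝ → ℝ} (hf : HasPoin cs {w | w ∈ par cs {j | j ∈ J} ∧ τ w = w} f) :
    HasPoin cs {w | w ∈ par cs {j | j ∈ K} ∧ τ w = w} fun x => (ls.map fun l => x ^ l).sum * f x := by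
  obtain ⟨a1, a2, a3, a4, a5, a6⟩ := h1
  simp only [orbb, Bool.and_eq_true, nodupb_iff, memb_iff, List.all_eq_true, Bool.or_eq_true,
    Bool.not_eq_true', eqb_iff, List.any_eq_true, decide_eq_true_iff, Nat.ble_eq] at h2
  obtain ⟨⟨⟨b1, b2⟩, b3⟩, b4⟩ := h2
  have hl := fun o : {o // o ∈ Os} => h.isLongest_of_longb cs hc o.1 (a4 o.1 o.2).2.2.2
  have := h.poin_step cs hτ (K := {j | j ∈ K}) (J := {j | j ∈ J}) a1 a2 (O := {o // o ∈ Os})
    (fun o => {i | i ∈ o.1.1}) (fun o => cs.wordProd o.1.2) (fun o => o.1.2.length)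
    (fun k hk => by obtain ⟨o, ho, hk⟩ := a3 k hk; exact ⟨⟨o, ho⟩, hk⟩)
    (fun o => (a4 o.1 o.2).1)
    (fun o i hi i' hi' => by
      rcases (a4 o.1 o.2).2.2.1 i hi i' hi' with e | e | e
      · exact ⟨0, by simpa using e⟩
      · exact ⟨1, by simpa using e⟩
      · exact ⟨2, by simpa [pow_two] using e⟩)
    (fun o => (hl o).1) (fun o => h.longest_fixed hτ (a4 o.1 o.2).2.1 (hl o).1)
    (fun o => (hl o).2.1) (fun o => (hl o).2.2) (μ := μ) (fun i hi => (a5 i hi).1)
    (fun i hi => (a5 i hi).2) a6 List.ofFn List.ofFn_injective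
    (fun o l => stepW cols o.1.2 l) (fun o ν => h.stepW_ofFn cs hc _ ν)
    (fun o l => posb o.1.1 l = true)
    (fun o ν => by simp only [posb, List.all_eq_true, decide_eq_true_iff, getD_ofFn]; rfl)
    T b1 b2
    (fun p hp o ho => by
      rcases b3 p hp o.1 o.2 with e | e
      · rw [e] at ho; cases ho
      · exact e)
    (fun p hp => by
      rcases b4 p hp with e | ⟨o, ho, e⟩
      · exact Or.inl e
      · exact Or.inr ⟨⟨o, ho⟩, e.1.1.1, e.1.1.2, e.1.2, e.2⟩) hf
  refine this.congr fun x => ?_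
  rw [← h3, List.map_map]
  rfl

theorem hasPoin_nil (cs : CoxeterSystem M W) (τ : W ≃* W) :
    HasPoin cs {w | w ∈ par cs {j | j ∈ ([] : List (Fin n))} ∧ τ w = w} fun _ => 1 := by
  simpa using hasPoin_empty cs τ

theorem HasPoin.of_all {cs : CoxeterSystem M W} {τ : W ≃* W} {K : List (Fin n)} {f : ℝ → ℝ}
    (hf : HasPoin cs {w | w ∈ par cs {j | j ∈ K} ∧ τ w = w} f) (hK : ∀ j, j ∈ K) :
    HasPoin cs {w | τ w = w} f := by
  refine hf.congr_set fun w => ?_
  have : {j | j ∈ K} = Set.univ := Set.eq_univ_of_forall hK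
  simp [this, par_univ]

end CA.Weyl
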