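import Cfsg.Agent.Lib.Weyl.Cartan

/-! Poincaré polynomials (generated orbit certificates). -/

set_option autoImplicit false
set_option maxRecDepth 100000
set_option synthInstance.maxSize 4096

namespace CA.Weyl

def tabB20 : List (List ℤ × ℕ) := [([1, 0], 0), ([-1, 1], 1)]

def tabB21 : List (List ℤ × ℕ) := [([0, 1], 0), ([2, -1], 1), ([-2, 1], 2),
  ([0, -1], 3)]

theorem poinB2 {W : Type*} [Group W] (cs : CoxeterSystem (CoxeterMatrix.B 2) W) :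
    HasPoin cs Set.univ fun x => geo 2 x * geo 4 x := by
  let τ : W ≃* W := MulEquiv.refl W
  have hτ : ∀ i, τ (cs.simple i) = cs.simple ((1 : Equiv.Perm (Fin 2)) i) := fun _ => rfl
  have h0 := hasPoin_nil cs τ
  have h1 := cartanCoxB2.poin_step_fin cs hτ colsB2_spec [0] [] [([0], [0])]
    ![1, 0] tabB20 [0, 1]
    (by decide +kernel) (by decide +kernel) (by decide +kernel) h0
  have h2 := cartanCoxB2.poin_step_fin cs hτ colsB2_spec [0, 1] [0] [([0], [0]), ([1], [1])]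
    ![0, 1] tabB21 [0, 1, 2, 3]
    (by decide +kernel) (by decide +kernel) (by decide +kernel) h1
  refine ((h2.of_all (by decide)).congr_set (S' := Set.univ) (fun w => by simp [τ])).congr
    fun x => ?_
  simp only [List.map_cons, List.map_nil, List.sum_cons, List.sum_nil, geo, Finset.sum_range_succ,
    Finset.sum_range_zero]
  ring

def tabG20 : List (List ℤ × ℕ) := [([1, 0], 0), ([-1, 1], 1)]

def tabG21 : List (List ℤ × ℕ) := [([0, 1], 0), ([3, -1], 1), ([-3, 2], 2),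
  ([3, -2], 3), ([-3, 1], 4), ([0, -1], 5)]

theorem poinG2 {W : Type*} [Group W] (cs : CoxeterSystem CoxeterMatrix.G₂ W) :
    HasPoin cs Set.univ fun x => geo 2 x * geo 6 x := by
  let τ : W ≃* W := MulEquiv.refl W
  have hτ : ∀ i, τ (cs.simple i) = cs.simple ((1 : Equiv.Perm (Fin 2)) i) := fun _ => rfl
  have h0 := hasPoin_nil cs τ
  have h1 := cartanCoxG2.poin_step_fin cs hτ colsG2_spec [0] [] [([0], [0])]
    ![1, 0] tabG20 [0, 1]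
    (by decide +kernel) (by decide +kernel) (by decide +kernel) h0
  have h2 := cartanCoxG2.poin_step_fin cs hτ colsG2_spec [0, 1] [0] [([0], [0]), ([1], [1])]
    ![0, 1] tabG21 [0, 1, 2, 3, 4, 5]
    (by decide +kernel) (by decide +kernel) (by decide +kernel) h1
  refine ((h2.of_all (by decide)).congr_set (S' := Set.univ) (fun w => by simp [τ])).congr
    fun x => ?_
  simp only [List.map_cons, List.map_nil, List.sum_cons, List.sum_nil, geo, Finset.sum_range_succ,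
    Finset.sum_range_zero]
  ring

def tabD40 : List (List ℤ × ℕ) := [([1, 0, 0, 0], 0), ([-1, 1, 0, 0], 1)]

def tabD41 : List (List ℤ × ℕ) := [([0, 1, 0, 0], 0), ([1, -1, 1, 1], 1), ([-1, 0, 1, 1], 2)]

def tabD42 : List (List ℤ × ℕ) := [([0, 0, 1, 0], 0), ([0, 1, -1, 0], 1), ([1, -1, 0, 1], 2),
  ([-1, 0, 0, 1], 3)]

def tabD43 : List (List ℤ × ℕ) := [([0, 0, 0, 1], 0), ([0, 1, 0, -1], 1), ([1, -1, 1, 0], 2),
  ([-1, 0, 1, 0], 3), ([1, 0, -1, 0], 3), ([-1, 1, -1, 0], 4),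
  ([0, -1, 0, 1], 5), ([0, 0, 0, -1], 6)]

theorem poinD4 {W : Type*} [Group W] (cs : CoxeterSystem Cfsg.Lie.coxeterD4 W) :
    HasPoin cs Set.univ fun x => geo 2 x * geo 4 x * geo 4 x * geo 6 x := by
  let τ : W ≃* W := MulEquiv.refl W
  have hτ : ∀ i, τ (cs.simple i) = cs.simple ((1 : Equiv.Perm (Fin 4)) i) := fun _ => rfl
  have h0 := hasPoin_nil cs τ
  have h1 := cartanCoxD4.poin_step_fin cs hτ colsD4_spec [0] [] [([0], [0])]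
    ![1, 0, 0, 0] tabD40 [0, 1]
    (by decide +kernel) (by decide +kernel) (by decide +kernel) h0
  have h2 := cartanCoxD4.poin_step_fin cs hτ colsD4_spec [0, 1] [0] [([0], [0]), ([1], [1])]
    ![0, 1, 0, 0] tabD41 [0, 1, 2]
    (by decide +kernel) (by decide +kernel) (by decide +kernel) h1
  have h3 := cartanCoxD4.poin_step_fin cs hτ colsD4_spec [0, 1, 2] [0, 1] [([0], [0]), ([1], [1]), ([2], [2])]
    ![0, 0, 1, 0] tabD42 [0, 1, 2, 3]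
    (by decide +kernel) (by decide +kernel) (by decide +kernel) h2
  have h4 := cartanCoxD4.poin_step_fin cs hτ colsD4_spec [0, 1, 2, 3] [0, 1, 2] [([0], [0]), ([1], [1]), ([2], [2]), ([3], [3])]
    ![0, 0, 0, 1] tabD43 [0, 1, 2, 3, 3, 4, 5, 6]
    (by decide +kernel) (by decide +kernel) (by decide +kernel) h3
  refine ((h4.of_all (by decide)).congr_set (S' := Set.univ) (fun w => by simp [τ])).congr
    fun x => ?_
  simp only [List.map_cons, List.map_nil, List.sum_cons, List.sum_nil, geo, Finset.sum_range_succ,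
    Finset.sum_range_zero]
  ring

def tabF40 : List (List ℤ × ℕ) := [([1, 0, 0, 0], 0), ([-1, 1, 0, 0], 1)]

def tabF41 : List (List ℤ × ℕ) := [([0, 1, 0, 0], 0), ([1, -1, 1, 0], 1), ([-1, 0, 1, 0], 2)]

def tabF42 : List (List ℤ × ℕ) := [([0, 0, 1, 0], 0), ([0, 2, -1, 1], 1), ([2, -2, 1, 1], 2),
  ([-2, 0, 1, 1], 3), ([2, 0, -1, 2], 3), ([-2, 2, -1, 2], 4),
  ([0, -2, 1, 2], 5), ([0, 0, -1, 3], 6)]

def tabF43 : List (List ℤ × ℕ) := [([0, 0, 0, 1], 0), ([0, 0, 1, -1], 1), ([0, 2, -1, 0], 2),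
  ([2, -2, 1, 0], 3), ([-2, 0, 1, 0], 4), ([2, 0, -1, 1], 4),
  ([-2, 2, -1, 1], 5), ([2, 0, 0, -1], 5), ([0, -2, 1, 1], 6),
  ([-2, 2, 0, -1], 6), ([0, 0, -1, 2], 7), ([0, -2, 2, -1], 7),
  ([0, 0, 1, -2], 8), ([0, 2, -2, 1], 8), ([0, 2, -1, -1], 9),
  ([2, -2, 0, 1], 9), ([2, -2, 1, -1], 10), ([-2, 0, 0, 1], 10),
  ([-2, 0, 1, -1], 11), ([2, 0, -1, 0], 11), ([-2, 2, -1, 0], 12),
  ([0, -2, 1, 0], 13), ([0, 0, -1, 1], 14), ([0, 0, 0, -1], 15)]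

theorem poinF4 {W : Type*} [Group W] (cs : CoxeterSystem CoxeterMatrix.F₄ W) :
    HasPoin cs Set.univ fun x => geo 2 x * geo 6 x * geo 8 x * geo 12 x := by
  let τ : W ≃* W := MulEquiv.refl W
  have hτ : ∀ i, τ (cs.simple i) = cs.simple ((1 : Equiv.Perm (Fin 4)) i) := fun _ => rfl
  have h0 := hasPoin_nil cs τ
  have h1 := cartanCoxF4.poin_step_fin cs hτ colsF4_spec [0] [] [([0], [0])]
    ![1, 0, 0, 0] tabF40 [0, 1]
    (by decide +kernel) (by decide +kernel) (by decide +kernel) h0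
  have h2 := cartanCoxF4.poin_step_fin cs hτ colsF4_spec [0, 1] [0] [([0], [0]), ([1], [1])]
    ![0, 1, 0, 0] tabF41 [0, 1, 2]
    (by decide +kernel) (by decide +kernel) (by decide +kernel) h1
  have h3 := cartanCoxF4.poin_step_fin cs hτ colsF4_spec [0, 1, 2] [0, 1] [([0], [0]), ([1], [1]), ([2], [2])]
    ![0, 0, 1, 0] tabF42 [0, 1, 2, 3, 3, 4, 5, 6]
    (by decide +kernel) (by decide +kernel) (by decide +kernel) h2
  have h4 := cartanCoxF4.poin_step_fin cs hτ colsF4_spec [0, 1, 2, 3] [0, 1, 2] [([0], [0]), ([1], [1]), ([2], [2]), ([3], [3])]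
    ![0, 0, 0, 1] tabF43 [0, 1, 2, 3, 4, 4, 5, 5, 6, 6, 7, 7, 8, 8, 9, 9, 10, 10, 11, 11, 12, 13, 14, 15]
    (by decide +kernel) (by decide +kernel) (by decide +kernel) h3
  refine ((h4.of_all (by decide)).congr_set (S' := Set.univ) (fun w => by simp [τ])).congr
    fun x => ?_
  simp only [List.map_cons, List.map_nil, List.sum_cons, List.sum_nil, geo, Finset.sum_range_succ,
    Finset.sum_range_zero]
  ring

def tabE60 : List (List ℤ × ℕ) := [([1, 0, 0, 0, 0, 0], 0), ([-1, 0, 1, 0, 0, 0], 1)]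

def tabE61 : List (List ℤ × ℕ) := [([0, 0, 1, 0, 0, 0], 0), ([1, 0, -1, 1, 0, 0], 1), ([-1, 0, 0, 1, 0, 0], 2)]

def tabE62 : List (List ℤ × ℕ) := [([0, 0, 0, 1, 0, 0], 0), ([0, 1, 1, -1, 1, 0], 1), ([1, 1, -1, 0, 1, 0], 2),
  ([-1, 1, 0, 0, 1, 0], 3)]

def tabE63 : List (List ℤ × ℕ) := [([0, 1, 0, 0, 0, 0], 0), ([0, -1, 0, 1, 0, 0], 1), ([0, 0, 1, -1, 1, 0], 2),
  ([1, 0, -1, 0, 1, 0], 3), ([-1, 0, 0, 0, 1, 0], 4)]

def tabE64 : List (List ℤ × ℕ) := [([0, 0, 0, 0, 1, 0], 0), ([0, 0, 0, 1, -1, 1], 1), ([0, 1, 1, -1, 0, 1], 2),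
  ([1, 1, -1, 0, 0, 1], 3), ([0, -1, 1, 0, 0, 1], 3), ([-1, 1, 0, 0, 0, 1], 4),
  ([1, -1, -1, 1, 0, 1], 4), ([-1, -1, 0, 1, 0, 1], 5), ([1, 0, 0, -1, 1, 1], 5),
  ([-1, 0, 1, -1, 1, 1], 6), ([1, 0, 0, 0, -1, 2], 6), ([0, 0, -1, 0, 1, 1], 7),
  ([-1, 0, 1, 0, -1, 2], 7), ([0, 0, -1, 1, -1, 2], 8), ([0, 1, 0, -1, 0, 2], 9),
  ([0, -1, 0, 0, 0, 2], 10)]

def tabE65 : List (List ℤ × ℕ) := [([0, 0, 0, 0, 0, 1], 0), ([0, 0, 0, 0, 1, -1], 1), ([0, 0, 0, 1, -1, 0], 2),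
  ([0, 1, 1, -1, 0, 0], 3), ([1, 1, -1, 0, 0, 0], 4), ([0, -1, 1, 0, 0, 0], 4),
  ([-1, 1, 0, 0, 0, 0], 5), ([1, -1, -1, 1, 0, 0], 5), ([-1, -1, 0, 1, 0, 0], 6),
  ([1, 0, 0, -1, 1, 0], 6), ([-1, 0, 1, -1, 1, 0], 7), ([1, 0, 0, 0, -1, 1], 7),
  ([0, 0, -1, 0, 1, 0], 8), ([-1, 0, 1, 0, -1, 1], 8), ([1, 0, 0, 0, 0, -1], 8),
  ([0, 0, -1, 1, -1, 1], 9), ([-1, 0, 1, 0, 0, -1], 9), ([0, 1, 0, -1, 0, 1], 10),
  ([0, 0, -1, 1, 0, -1], 10), ([0, -1, 0, 0, 0, 1], 11), ([0, 1, 0, -1, 1, -1], 11),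
  ([0, -1, 0, 0, 1, -1], 12), ([0, 1, 0, 0, -1, 0], 12), ([0, -1, 0, 1, -1, 0], 13),
  ([0, 0, 1, -1, 0, 0], 14), ([1, 0, -1, 0, 0, 0], 15), ([-1, 0, 0, 0, 0, 0], 16)]

theorem poinE6 {W : Type*} [Group W] (cs : CoxeterSystem CoxeterMatrix.E₆ W) :
    HasPoin cs Set.univ fun x => geo 2 x * geo 5 x * geo 6 x * geo 8 x * geo 9 x * geo 12 x := by
  let τ : W ≃* W := MulEquiv.refl W
  have hτ : ∀ i, τ (cs.simple i) = cs.simple ((1 : Equiv.Perm (Fin 6)) i) := fun _ => rfl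
  have h0 := hasPoin_nil cs τ
  have h1 := cartanCoxE6.poin_step_fin cs hτ colsE6_spec [0] [] [([0], [0])]
    ![1, 0, 0, 0, 0, 0] tabE60 [0, 1]
    (by decide +kernel) (by decide +kernel) (by decide +kernel) h0
  have h2 := cartanCoxE6.poin_step_fin cs hτ colsE6_spec [0, 2] [0] [([0], [0]), ([2], [2])]
    ![0, 0, 1, 0, 0, 0] tabE61 [0, 1, 2]
    (by decide +kernel) (by decide +kernel) (by decide +kernel) h1
  have h3 := cartanCoxE6.poin_step_fin cs hτ colsE6_spec [0, 2, 3] [0, 2] [([0], [0]), ([2], [2]), ([3], [3])]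
    ![0, 0, 0, 1, 0, 0] tabE62 [0, 1, 2, 3]
    (by decide +kernel) (by decide +kernel) (by decide +kernel) h2
  have h4 := cartanCoxE6.poin_step_fin cs hτ colsE6_spec [0, 2, 3, 1] [0, 2, 3] [([0], [0]), ([2], [2]), ([3], [3]), ([1], [1])]
    ![0, 1, 0, 0, 0, 0] tabE63 [0, 1, 2, 3, 4]
    (by decide +kernel) (by decide +kernel) (by decide +kernel) h3
  have h5 := cartanCoxE6.poin_step_fin cs hτ colsE6_spec [0, 2, 3, 1, 4] [0, 2, 3, 1] [([0], [0]), ([2], [2]), ([3], [3]), ([1], [1]), ([4], [4])]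
    ![0, 0, 0, 0, 1, 0] tabE64 [0, 1, 2, 3, 3, 4, 4, 5, 5, 6, 6, 7, 7, 8, 9, 10]
    (by decide +kernel) (by decide +kernel) (by decide +kernel) h4
  have h6 := cartanCoxE6.poin_step_fin cs hτ colsE6_spec [0, 2, 3, 1, 4, 5] [0, 2, 3, 1, 4] [([0], [0]), ([2], [2]), ([3], [3]), ([1], [1]), ([4], [4]), ([5], [5])]
    ![0, 0, 0, 0, 0, 1] tabE65 [0, 1, 2, 3, 4, 4, 5, 5, 6, 6, 7, 7, 8, 8, 8, 9, 9, 10, 10, 11, 11, 12, 12, 13, 14, 15, 16]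
    (by decide +kernel) (by decide +kernel) (by decide +kernel) h5
  refine ((h6.of_all (by decide)).congr_set (S' := Set.univ) (fun w => by simp [τ])).congr
    fun x => ?_
  simp only [List.map_cons, List.map_nil, List.sum_cons, List.sum_nil, geo, Finset.sum_range_succ,
    Finset.sum_range_zero]
  ring

def tabE70 : List (List ℤ × ℕ) := [([1, 0, 0, 0, 0, 0, 0], 0), ([-1, 0, 1, 0, 0, 0, 0], 1)]

def tabE71 : List (List ℤ × ℕ) := [([0, 0, 1, 0, 0, 0, 0], 0), ([1, 0, -1, 1, 0, 0, 0], 1), ([-1, 0, 0, 1, 0, 0, 0], 2)]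

def tabE72 : List (List ℤ × ℕ) := [([0, 0, 0, 1, 0, 0, 0], 0), ([0, 1, 1, -1, 1, 0, 0], 1), ([1, 1, -1, 0, 1, 0, 0], 2),
  ([-1, 1, 0, 0, 1, 0, 0], 3)]

def tabE73 : List (List ℤ × ℕ) := [([0, 1, 0, 0, 0, 0, 0], 0), ([0, -1, 0, 1, 0, 0, 0], 1), ([0, 0, 1, -1, 1, 0, 0], 2),
  ([1, 0, -1, 0, 1, 0, 0], 3), ([-1, 0, 0, 0, 1, 0, 0], 4)]

def tabE74 : List (List ℤ × ℕ) := [([0, 0, 0, 0, 1, 0, 0], 0), ([0, 0, 0, 1, -1, 1, 0], 1), ([0, 1, 1, -1, 0, 1, 0], 2),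
  ([1, 1, -1, 0, 0, 1, 0], 3), ([0, -1, 1, 0, 0, 1, 0], 3), ([-1, 1, 0, 0, 0, 1, 0], 4),
  ([1, -1, -1, 1, 0, 1, 0], 4), ([-1, -1, 0, 1, 0, 1, 0], 5), ([1, 0, 0, -1, 1, 1, 0], 5),
  ([-1, 0, 1, -1, 1, 1, 0], 6), ([1, 0, 0, 0, -1, 2, 0], 6), ([0, 0, -1, 0, 1, 1, 0], 7),
  ([-1, 0, 1, 0, -1, 2, 0], 7), ([0, 0, -1, 1, -1, 2, 0], 8), ([0, 1, 0, -1, 0, 2, 0], 9),
  ([0, -1, 0, 0, 0, 2, 0], 10)]

def tabE75 : List (List ℤ × ℕ) := [([0, 0, 0, 0, 0, 1, 0], 0), ([0, 0, 0, 0, 1, -1, 1], 1), ([0, 0, 0, 1, -1, 0, 1], 2),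
  ([0, 1, 1, -1, 0, 0, 1], 3), ([1, 1, -1, 0, 0, 0, 1], 4), ([0, -1, 1, 0, 0, 0, 1], 4),
  ([-1, 1, 0, 0, 0, 0, 1], 5), ([1, -1, -1, 1, 0, 0, 1], 5), ([-1, -1, 0, 1, 0, 0, 1], 6),
  ([1, 0, 0, -1, 1, 0, 1], 6), ([-1, 0, 1, -1, 1, 0, 1], 7), ([1, 0, 0, 0, -1, 1, 1], 7),
  ([0, 0, -1, 0, 1, 0, 1], 8), ([-1, 0, 1, 0, -1, 1, 1], 8), ([1, 0, 0, 0, 0, -1, 2], 8),
  ([0, 0, -1, 1, -1, 1, 1], 9), ([-1, 0, 1, 0, 0, -1, 2], 9), ([0, 1, 0, -1, 0, 1, 1], 10),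
  ([0, 0, -1, 1, 0, -1, 2], 10), ([0, -1, 0, 0, 0, 1, 1], 11), ([0, 1, 0, -1, 1, -1, 2], 11),
  ([0, -1, 0, 0, 1, -1, 2], 12), ([0, 1, 0, 0, -1, 0, 2], 12), ([0, -1, 0, 1, -1, 0, 2], 13),
  ([0, 0, 1, -1, 0, 0, 2], 14), ([1, 0, -1, 0, 0, 0, 2], 15), ([-1, 0, 0, 0, 0, 0, 2], 16)]

def tabE76 : List (List ℤ × ℕ) := [([0, 0, 0, 0, 0, 0, 1], 0), ([0, 0, 0, 0, 0, 1, -1], 1), ([0, 0, 0, 0, 1, -1, 0], 2),
  ([0, 0, 0, 1, -1, 0, 0], 3), ([0, 1, 1, -1, 0, 0, 0], 4), ([1, 1, -1, 0, 0, 0, 0], 5),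
  ([0, -1, 1, 0, 0, 0, 0], 5), ([-1, 1, 0, 0, 0, 0, 0], 6), ([1, -1, -1, 1, 0, 0, 0], 6),
  ([-1, -1, 0, 1, 0, 0, 0], 7), ([1, 0, 0, -1, 1, 0, 0], 7), ([-1, 0, 1, -1, 1, 0, 0], 8),
  ([1, 0, 0, 0, -1, 1, 0], 8), ([0, 0, -1, 0, 1, 0, 0], 9), ([-1, 0, 1, 0, -1, 1, 0], 9),
  ([1, 0, 0, 0, 0, -1, 1], 9), ([0, 0, -1, 1, -1, 1, 0], 10), ([-1, 0, 1, 0, 0, -1, 1], 10),
  ([1, 0, 0, 0, 0, 0, -1], 10), ([0, 1, 0, -1, 0, 1, 0], 11), ([0, 0, -1, 1, 0, -1, 1], 11),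
  ([-1, 0, 1, 0, 0, 0, -1], 11), ([0, -1, 0, 0, 0, 1, 0], 12), ([0, 1, 0, -1, 1, -1, 1], 12),
  ([0, 0, -1, 1, 0, 0, -1], 12), ([0, -1, 0, 0, 1, -1, 1], 13), ([0, 1, 0, 0, -1, 0, 1], 13),
  ([0, 1, 0, -1, 1, 0, -1], 13), ([0, -1, 0, 1, -1, 0, 1], 14), ([0, -1, 0, 0, 1, 0, -1], 14),
  ([0, 1, 0, 0, -1, 1, -1], 14), ([0, 0, 1, -1, 0, 0, 1], 15), ([0, -1, 0, 1, -1, 1, -1], 15),
  ([0, 1, 0, 0, 0, -1, 0], 15), ([1, 0, -1, 0, 0, 0, 1], 16), ([0, 0, 1, -1, 0, 1, -1], 16),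
  ([0, -1, 0, 1, 0, -1, 0], 16), ([-1, 0, 0, 0, 0, 0, 1], 17), ([1, 0, -1, 0, 0, 1, -1], 17),
  ([0, 0, 1, -1, 1, -1, 0], 17), ([-1, 0, 0, 0, 0, 1, -1], 18), ([1, 0, -1, 0, 1, -1, 0], 18),
  ([0, 0, 1, 0, -1, 0, 0], 18), ([-1, 0, 0, 0, 1, -1, 0], 19), ([1, 0, -1, 1, -1, 0, 0], 19),
  ([-1, 0, 0, 1, -1, 0, 0], 20), ([1, 1, 0, -1, 0, 0, 0], 20), ([-1, 1, 1, -1, 0, 0, 0], 21),
  ([1, -1, 0, 0, 0, 0, 0], 21), ([0, 1, -1, 0, 0, 0, 0], 22), ([-1, -1, 1, 0, 0, 0, 0], 22),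
  ([0, -1, -1, 1, 0, 0, 0], 23), ([0, 0, 0, -1, 1, 0, 0], 24), ([0, 0, 0, 0, -1, 1, 0], 25),
  ([0, 0, 0, 0, 0, -1, 1], 26), ([0, 0, 0, 0, 0, 0, -1], 27)]

theorem poinE7 {W : Type*} [Group W] (cs : CoxeterSystem CoxeterMatrix.E₇ W) :
    HasPoin cs Set.univ fun x => geo 2 x * geo 6 x * geo 8 x * geo 10 x * geo 12 x * geo 14 x * geo 18 x := by
  let τ : W ≃* W := MulEquiv.refl W
  have hτ : ∀ i, τ (cs.simple i) = cs.simple ((1 : Equiv.Perm (Fin 7)) i) := fun _ => rfl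
  have h0 := hasPoin_nil cs τ
  have h1 := cartanCoxE7.poin_step_fin cs hτ colsE7_spec [0] [] [([0], [0])]
    ![1, 0, 0, 0, 0, 0, 0] tabE70 [0, 1]
    (by decide +kernel) (by decide +kernel) (by decide +kernel) h0
  have h2 := cartanCoxE7.poin_step_fin cs hτ colsE7_spec [0, 2] [0] [([0], [0]), ([2], [2])]
    ![0, 0, 1, 0, 0, 0, 0] tabE71 [0, 1, 2]
    (by decide +kernel) (by decide +kernel) (by decide +kernel) h1
  have h3 := cartanCoxE7.poin_step_fin cs hτ colsE7_spec [0, 2, 3] [0, 2] [([0], [0]), ([2], [2]), ([3], [3])]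
    ![0, 0, 0, 1, 0, 0, 0] tabE72 [0, 1, 2, 3]
    (by decide +kernel) (by decide +kernel) (by decide +kernel) h2
  have h4 := cartanCoxE7.poin_step_fin cs hτ colsE7_spec [0, 2, 3, 1] [0, 2, 3] [([0], [0]), ([2], [2]), ([3], [3]), ([1], [1])]
    ![0, 1, 0, 0, 0, 0, 0] tabE73 [0, 1, 2, 3, 4]
    (by decide +kernel) (by decide +kernel) (by decide +kernel) h3
  have h5 := cartanCoxE7.poin_step_fin cs hτ colsE7_spec [0, 2, 3, 1, 4] [0, 2, 3, 1] [([0], [0]), ([2], [2]), ([3], [3]), ([1], [1]), ([4], [4])]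
    ![0, 0, 0, 0, 1, 0, 0] tabE74 [0, 1, 2, 3, 3, 4, 4, 5, 5, 6, 6, 7, 7, 8, 9, 10]
    (by decide +kernel) (by decide +kernel) (by decide +kernel) h4
  have h6 := cartanCoxE7.poin_step_fin cs hτ colsE7_spec [0, 2, 3, 1, 4, 5] [0, 2, 3, 1, 4] [([0], [0]), ([2], [2]), ([3], [3]), ([1], [1]), ([4], [4]), ([5], [5])]
    ![0, 0, 0, 0, 0, 1, 0] tabE75 [0, 1, 2, 3, 4, 4, 5, 5, 6, 6, 7, 7, 8, 8, 8, 9, 9, 10, 10, 11, 11, 12, 12, 13, 14, 15, 16]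
    (by decide +kernel) (by decide +kernel) (by decide +kernel) h5
  have h7 := cartanCoxE7.poin_step_fin cs hτ colsE7_spec [0, 2, 3, 1, 4, 5, 6] [0, 2, 3, 1, 4, 5] [([0], [0]), ([2], [2]), ([3], [3]), ([1], [1]), ([4], [4]), ([5], [5]), ([6], [6])]
    ![0, 0, 0, 0, 0, 0, 1] tabE76 [0, 1, 2, 3, 4, 5, 5, 6, 6, 7, 7, 8, 8, 9, 9, 9, 10, 10, 10, 11, 11, 11, 12, 12, 12, 13, 13, 13, 14, 14, 14, 15, 15, 15, 16, 16, 16, 17, 17, 17, 18, 18, 18, 19, 19, 20, 20, 21, 21, 22, 22, 23, 24, 25, 26, 27]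
    (by decide +kernel) (by decide +kernel) (by decide +kernel) h6
  refine ((h7.of_all (by decide)).congr_set (S' := Set.univ) (fun w => by simp [τ])).congr
    fun x => ?_
  simp only [List.map_cons, List.map_nil, List.sum_cons, List.sum_nil, geo, Finset.sum_range_succ,
    Finset.sum_range_zero]
  ring

def tabTwE60 : List (List ℤ × ℕ) := [([0, 1, 0, 0, 0, 0], 0), ([0, -1, 0, 1, 0, 0], 1)]

def tabTwE61 : List (List ℤ × ℕ) := [([0, 0, 0, 1, 0, 0], 0), ([0, 1, 1, -1, 1, 0], 1), ([0, -1, 1, 0, 1, 0], 2)]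

def tabTwE62 : List (List ℤ × ℕ) := [([0, 0, 1, 0, 1, 0], 0), ([1, 0, -1, 2, -1, 1], 2), ([1, 2, 1, -2, 1, 1], 3),
  ([1, -2, 1, 0, 1, 1], 4), ([2, 2, -1, 0, -1, 2], 5), ([2, -2, -1, 2, -1, 2], 6),
  ([2, 0, 1, -2, 1, 2], 7), ([3, 0, -1, 0, -1, 3], 9)]

def tabTwE63 : List (List ℤ × ℕ) := [([1, 0, 0, 0, 0, 1], 0), ([-1, 0, 1, 0, 1, -1], 2), ([0, 0, -1, 2, -1, 0], 4),
  ([0, 2, 1, -2, 1, 0], 5), ([0, -2, 1, 0, 1, 0], 6), ([1, 2, -1, 0, -1, 1], 7),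
  ([1, -2, -1, 2, -1, 1], 8), ([-1, 2, 0, 0, 0, -1], 9), ([1, 0, 1, -2, 1, 1], 9),
  ([-1, -2, 0, 2, 0, -1], 10), ([2, 0, -1, 0, -1, 2], 11), ([-1, 0, 2, -2, 2, -1], 11),
  ([-2, 0, 1, 0, 1, -2], 13), ([1, 0, -2, 2, -2, 1], 13), ([1, 2, 0, -2, 0, 1], 14),
  ([-1, 0, -1, 2, -1, -1], 15), ([1, -2, 0, 0, 0, 1], 15), ([-1, 2, 1, -2, 1, -1], 16),
  ([-1, -2, 1, 0, 1, -1], 17), ([0, 2, -1, 0, -1, 0], 18), ([0, -2, -1, 2, -1, 0], 19),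
  ([0, 0, 1, -2, 1, 0], 20), ([1, 0, -1, 0, -1, 1], 22), ([-1, 0, 0, 0, 0, -1], 24)]

theorem poinTwE6 {W : Type*} [Group W] (cs : CoxeterSystem CoxeterMatrix.E₆ W) (τ : W ≃* W)
    (hτ : ∀ i, τ (cs.simple i) = cs.simple (rhoE6 i)) :
    HasPoin cs {w | τ w = w} fun x => geo 2 x * (x ^ 5 + 1) * (x ^ 4 + x ^ 2 + 1) * ((x ^ 2 + 1) * (x ^ 4 + 1)) * (x ^ 9 + 1) * geo 12 x := by
  have h0 := hasPoin_nil cs τ
  have h1 := cartanCoxE6.poin_step_fin cs hτ colsE6_spec [1] [] [([1], [1])]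
    ![0, 1, 0, 0, 0, 0] tabTwE60 [0, 1]
    (by decide +kernel) (by decide +kernel) (by decide +kernel) h0
  have h2 := cartanCoxE6.poin_step_fin cs hτ colsE6_spec [1, 3] [1] [([1], [1]), ([3], [3])]
    ![0, 0, 0, 1, 0, 0] tabTwE61 [0, 1, 2]
    (by decide +kernel) (by decide +kernel) (by decide +kernel) h1
  have h3 := cartanCoxE6.poin_step_fin cs hτ colsE6_spec [1, 3, 2, 4] [1, 3] [([1], [1]), ([3], [3]), ([2, 4], [4, 2])]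
    ![0, 0, 1, 0, 1, 0] tabTwE62 [0, 2, 3, 4, 5, 6, 7, 9]
    (by decide +kernel) (by decide +kernel) (by decide +kernel) h2
  have h4 := cartanCoxE6.poin_step_fin cs hτ colsE6_spec [1, 3, 2, 4, 0, 5] [1, 3, 2, 4] [([1], [1]), ([3], [3]), ([2, 4], [4, 2]), ([0, 5], [5, 0])]
    ![1, 0, 0, 0, 0, 1] tabTwE63 [0, 2, 4, 5, 6, 7, 8, 9, 9, 10, 11, 11, 13, 13, 14, 15, 15, 16, 17, 18, 19, 20, 22, 24]
    (by decide +kernel) (by decide +kernel) (by decide +kernel) h3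
  refine (h4.of_all (by decide)).congr fun x => ?_
  simp only [List.map_cons, List.map_nil, List.sum_cons, List.sum_nil, geo, Finset.sum_range_succ,
    Finset.sum_range_zero]
  ring

def tabTwD40 : List (List ℤ × ℕ) := [([0, 1, 0, 0], 0), ([1, -1, 1, 1], 1)]

def tabTwD41 : List (List ℤ × ℕ) := [([1, 0, 1, 1], 0), ([-1, 3, -1, -1], 3), ([2, -3, 2, 2], 4),
  ([-2, 3, -2, -2], 7), ([1, -3, 1, 1], 8), ([-1, 0, -1, -1], 11)]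

theorem poinTwD4 {W : Type*} [Group W] (cs : CoxeterSystem Cfsg.Lie.coxeterD4 W) (τ : W ≃* W)
    (hτ : ∀ i, τ (cs.simple i) = cs.simple (rhoD4 i)) :
    HasPoin cs {w | τ w = w} fun x => (x + 1) * (x ^ 3 + 1) * (x ^ 8 + x ^ 4 + 1) := by
  have h0 := hasPoin_nil cs τ
  have h1 := cartanCoxD4.poin_step_fin cs hτ colsD4_spec [1] [] [([1], [1])]
    ![0, 1, 0, 0] tabTwD40 [0, 1]
    (by decide +kernel) (by decide +kernel) (by decide +kernel) h0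
  have h2 := cartanCoxD4.poin_step_fin cs hτ colsD4_spec [1, 0, 2, 3] [1] [([1], [1]), ([0, 2, 3], [3, 2, 0])]
    ![1, 0, 1, 1] tabTwD41 [0, 3, 4, 7, 8, 11]
    (by decide +kernel) (by decide +kernel) (by decide +kernel) h1
  refine (h2.of_all (by decide)).congr fun x => ?_
  simp only [List.map_cons, List.map_nil, List.sum_cons, List.sum_nil, geo, Finset.sum_range_succ,
    Finset.sum_range_zero]
  ring

def tabTwF40 : List (List ℤ × ℕ) := [([1, 0, 0, 1], 0), ([-1, 1, 1, -1], 2)]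

def tabTwF41 : List (List ℤ × ℕ) := [([0, 1, 1, 0], 0), ([4, -1, -1, 3], 4), ([-4, 3, 2, -3], 6),
  ([6, -3, -2, 4], 10), ([-6, 3, 2, -4], 12), ([4, -3, -2, 3], 16),
  ([-4, 1, 1, -3], 18), ([0, -1, -1, 0], 22)]

theorem poinTwF4 {W : Type*} [Group W] (cs : CoxeterSystem CoxeterMatrix.F₄ W) (τ : W ≃* W)
    (hτ : ∀ i, τ (cs.simple i) = cs.simple (rhoF4 i)) :
    HasPoin cs {w | τ w = w} fun x => (x ^ 6 + 1) * ((x ^ 2 + 1) * (x ^ 4 + 1)) * (x ^ 12 + 1) := by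
  have h0 := hasPoin_nil cs τ
  have h1 := cartanCoxF4.poin_step_fin cs hτ colsF4_spec [0, 3] [] [([0, 3], [3, 0])]
    ![1, 0, 0, 1] tabTwF40 [0, 2]
    (by decide +kernel) (by decide +kernel) (by decide +kernel) h0
  have h2 := cartanCoxF4.poin_step_fin cs hτ colsF4_spec [0, 3, 1, 2] [0, 3] [([0, 3], [3, 0]), ([1, 2], [2, 1, 2, 1])]
    ![0, 1, 1, 0] tabTwF41 [0, 4, 6, 10, 12, 16, 18, 22]
    (by decide +kernel) (by decide +kernel) (by decide +kernel) h1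
  refine (h2.of_all (by decide)).congr fun x => ?_
  simp only [List.map_cons, List.map_nil, List.sum_cons, List.sum_nil, geo, Finset.sum_range_succ,
    Finset.sum_range_zero]
  ring

def tabTwG20 : List (List ℤ × ℕ) := [([1, 1], 0), ([-1, -1], 6)]

theorem poinTwG2 {W : Type*} [Group W] (cs : CoxeterSystem CoxeterMatrix.G₂ W) (τ : W ≃* W)
    (hτ : ∀ i, τ (cs.simple i) = cs.simple (rhoG2 i)) :
    HasPoin cs {w | τ w = w} fun x => x ^ 6 + 1 := by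
  have h0 := hasPoin_nil cs τ
  have h1 := cartanCoxG2.poin_step_fin cs hτ colsG2_spec [0, 1] [] [([0, 1], [1, 0, 1, 0, 1, 0])]
    ![1, 1] tabTwG20 [0, 6]
    (by decide +kernel) (by decide +kernel) (by decide +kernel) h0
  refine (h1.of_all (by decide)).congr fun x => ?_
  simp only [List.map_cons, List.map_nil, List.sum_cons, List.sum_nil, geo, Finset.sum_range_succ,
    Finset.sum_range_zero]
  ring

end CA.Weyl
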